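/-
Project G2R: consequences of the model, and facts on the Sylow subgroup `U6`.
-/
import Cfsg.Agent.G2R.Defs

set_option autoImplicit false
set_option linter.constructorNameAsVariable false

universe u

namespace CL.G2R
open Subgroup CL.Grp CL.L34

namespace Apx

theorem v3 (k : ℕ) : ((.v : K4) ^ k) ^ 3 = 1 := by rw [pow_right_comm, show (.v : K4) ^ 3 = 1 by decide, one_pow]

theorem tor_tor (l l' : K4) (u : U6) : tor l 1 (tor l' 1 u) = tor (l' * l) 1 u := by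
  simp only [tor]; ext1 <;> ring

theorem tor_C {l : K4} (h : l ^ 3 = 1) (p c : K4) : tor l 1 (xC p c) = xC p c := by simp [tor, h]

theorem cj_C (u : U6) (p c : K4) : u * xC p c * u⁻¹ = xC p (c + u.r * p) := by
  simp only [U6.mul_def, U6.inv_def]; ext1 <;> grind

theorem cm_Z (u : U6) (c : K4) : u * xZ c = xZ c * u := by simp only [U6.mul_def]; ext1 <;> grind

variable {G : Type u} [Group G] {L : Subgroup G} {κ : U6 →* G} {x n h g : G} {φ : G → G} (M : Md L κ x n h φ)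
include M

theorem axk (k : ℕ) (u : U6) : x ^ k * κ u * (x ^ k)⁻¹ = κ (tor (.v ^ k) 1 u) := by
  induction k with
  | zero => simp [tor]
  | succ k ih => rw [pow_succ (.v : K4), ← tor_tor, ← M.ax, ← ih, pow_succ']; group

theorem small (u : U6) (k : ℕ) (y : U6) : κ u * x ^ k * κ y * (κ u * x ^ k)⁻¹ = κ (u * tor (.v ^ k) 1 y * u⁻¹) := by
  rw [map_mul, map_mul, map_inv, ← axk M]; group

theorem big (u u' : U6) (k : ℕ) {y : U6} (e : κ u * n * x ^ k * κ u' * κ (xC 1 0) * (κ u * n * x ^ k * κ u')⁻¹ = κ y) :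
    y.r = 1 := by
  rw [show κ u * n * x ^ k * κ u' * κ (xC 1 0) * (κ u * n * x ^ k * κ u')⁻¹ =
    κ u * (n * (x ^ k * (κ u' * κ (xC 1 0) * (κ u')⁻¹) * (x ^ k)⁻¹) * n⁻¹) * (κ u)⁻¹ by group, ← map_inv κ u', ← map_mul,
    ← map_mul, cj_C, axk M, tor_C (v3 k), M.an, ← map_inv, ← map_mul, ← map_mul] at e
  rw [← M.inj e]
  simp only [U6.mul_def, U6.inv_def]; grind

theorem cV (hg : g ∈ L) (e : g * κ (xZ 1) = κ (xZ 1) * g) (c : K4) : g * κ (xZ c) = κ (xZ c) * g := by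
  have k1 : ∀ u, Commute (κ u) (κ (xZ c)) := fun u => Commute.map (cm_Z u c) κ
  have k2 : Commute x (κ (xZ c)) := mul_inv_eq_iff_eq_mul.1 ((M.ax _).trans (congrArg κ (tor_C (by decide) 0 c)))
  have k3 : Commute n (κ (xZ c)) := mul_inv_eq_iff_eq_mul.1 (by simpa using M.an 0 0 0 0 c)
  obtain ⟨u, u', k, rfl | rfl⟩ := M.bz g hg e
  exacts [(k1 u).mul_left (k2.pow_left k), (((k1 u).mul_left k3).mul_left (k2.pow_left k)).mul_left (k1 u')]

theorem cA (hg : g ∈ L) (e : ∀ p c, g * κ (xC p c) = κ (xC p c) * g) (h2 : Two g) : ∃ u : U6, u.r = 0 ∧ g = κ u := by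
  obtain ⟨u, u', k, rfl | rfl⟩ := M.bz g hg (e 0 1)
  · obtain ⟨m, hm⟩ := h2
    have pw : ∀ j : ℕ, ∃ y, (κ u * x ^ k) ^ j = κ y * (x ^ k) ^ j := fun j => by
      induction j with
      | zero => exact ⟨1, by simp⟩
      | succ j ih =>
        obtain ⟨y, ih⟩ := ih
        exact ⟨u * tor (.v ^ k) 1 y, by rw [pow_succ', ih, map_mul, ← axk M, pow_succ']; group⟩
    obtain ⟨y, hy⟩ := pw (2 ^ m)
    have e1 : ((x ^ k) ^ 2 ^ m) ^ 4096 = 1 := by
      rw [eq_inv_of_mul_eq_one_right (hy.symm.trans hm), ← map_inv, ← map_pow, ← U6.card, pow_card_eq_one', map_one]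
    have e2 := pow_gcd_eq_one.2 ⟨show (x ^ k) ^ 3 = 1 by rw [pow_right_comm, M.x3, one_pow], (pow_mul _ _ _).trans e1⟩
    rw [Nat.Coprime.mul_right (Nat.Coprime.pow_right m (by norm_num)) (by norm_num), pow_one] at e2
    rw [e2, mul_one] at e ⊢
    have := congrArg U6.c (M.inj ((map_mul κ _ _).trans ((e 1 0).trans (map_mul κ _ _).symm)))
    exact ⟨u, by simpa [U6.mul_def] using this, rfl⟩
  · exact absurd (big M u u' k (mul_inv_eq_iff_eq_mul.2 (e 1 0))) (by decide)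

theorem cQV (hg : g ∈ L) (e : g * κ (xZ 1) = κ (xZ 1) * g) (hq : ∀ u : U6, u.s = 0 → ∃ c, g * κ u * g⁻¹ = κ (u * xZ c)) :
    ∃ u : U6, u.s = 0 ∧ g = κ u := by
  obtain ⟨u, u', k, rfl | rfl⟩ := M.bz g hg e
  · obtain ⟨c, e1⟩ := hq (xB 1) rfl
    rw [pow_eq_pow_mod k M.x3] at e1 ⊢
    replace e1 := M.inj ((small M ..).symm.trans e1)
    have e2 : (.v ^ (k % 3) : K4) ^ 2 = 1 := by
      have := congrArg U6.w e1
      simp only [U6.mul_def, U6.inv_def, tor] at this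
      grind
    have e3 : k % 3 = 0 := by
      have := Nat.mod_lt k (show 0 < 3 by norm_num)
      generalize k % 3 = j at *
      interval_cases j
      exacts [rfl, absurd e2 (by decide), absurd e2 (by decide)]
    rw [e3] at e1 ⊢
    have := congrArg U6.p e1
    simp only [U6.mul_def, U6.inv_def, tor] at this
    exact ⟨u, by grind, by simp⟩
  · obtain ⟨c, e1⟩ := hq (xC 1 0) rfl
    exact absurd (big M u u' k e1) (by simp [U6.mul_def])

theorem cQ (hg : g ∈ L) (e : ∀ u : U6, u.s = 0 → g * κ u = κ u * g) : ∃ c, g = κ (xZ c) := by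
  obtain ⟨u, hu, rfl⟩ := cQV M hg (e _ rfl) fun y hy =>
    ⟨0, by rw [e y hy, mul_inv_cancel_right]; exact congrArg κ (mul_one y).symm⟩
  have k : ∀ y : U6, y.s = 0 → (u * y).c = (y * u).c := fun y hy =>
    congrArg U6.c (M.inj ((map_mul κ _ _).trans ((e y hy).trans (map_mul κ _ _).symm)))
  exact ⟨u.c, congrArg κ (U6.ext hu (by simpa [U6.mul_def, hu] using k (xC 1 0) rfl)
    (by simpa [U6.mul_def, hu] using k (xB 1) rfl) (by simpa [U6.mul_def, hu] using k (xA 1) rfl)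
    (by simpa [U6.mul_def, hu] using k (xb 1) rfl) rfl)⟩

theorem inn (hg : g ∈ normalizer (L : Set G)) (e : ∀ c, g * κ (xZ c) = κ (xZ c) * g) :
    ∃ l ∈ L, l * g ∈ centralizer (L : Set G) := by
  obtain ⟨l, hl, k | k⟩ := M.aut g hg
  · exact ⟨l, hl, k⟩
  have k1 : ∀ c, l * κ (xZ c) * l⁻¹ = κ (frob (xZ c)) := fun c => by
    rw [← M.fk, ← k _ (M.mem _), mul_assoc l g, e]; group
  have := k1 .w
  rw [cV M hl (mul_inv_eq_iff_eq_mul.1 (k1 1)), mul_inv_cancel_right] at this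
  exact absurd (M.inj this) (by decide)

theorem idx {a b : G} (ha : a ∈ normalizer (L : Set G)) (hb : b ∈ normalizer (L : Set G)) :
    (∃ l ∈ L, l * a ∈ centralizer (L : Set G)) ∨ (∃ l ∈ L, l * b ∈ centralizer (L : Set G)) ∨
      ∃ l ∈ L, l * (a * b) ∈ centralizer (L : Set G) := by
  obtain ⟨l, hl, k | k⟩ := M.aut a ha
  · exact .inl ⟨l, hl, k⟩
  obtain ⟨l', hl', k' | k'⟩ := M.aut b hb
  · exact .inr (.inl ⟨l', hl', k'⟩)
  refine .inr (.inr ⟨l * (a * l' * a⁻¹), mul_mem hl ((mem_normalizer_iff.1 ha _).1 hl'), fun y hy => ?_⟩)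
  have := k _ (k' y hy ▸ (mem_normalizer_iff.1 (mul_mem (le_normalizer hl') hb) y).1 hy)
  rw [M.ff y hy, ← k' y hy] at this
  conv_lhs => rw [← this]
  group

end Apx

theorem apiS : ApiS.{u} := fun _ _ _ _ _ _ _ _ M =>
  ⟨fun _ ha _ hb => Apx.idx M ha hb, fun _ => Apx.cV M, fun _ => Apx.inn M, fun _ => Apx.cA M, fun _ => Apx.cQ M,
    fun _ => Apx.cQV M⟩

namespace Ufx

/-- the conjugates of the root elements of `b` -/
def cb (s r : K4) : U6 := xa s * xb r * (xa s)⁻¹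
/-- a product of four of them -/
def pd (r v w p : K4) : U6 := cb 0 (r + p) * cb 1 (p + v + w) * cb .w (p + .v * v + .w * w) * cb .v (p + .w * v + .v * w)

theorem pd_eq : ∀ r v w p, pd r v w p = ⟨0, r, v, w, p, (pd r v w p).c⟩ := by decide +kernel
theorem z_eq : ∀ c, xZ c = cb 0 c * cb 1 1 * (cb 0 c)⁻¹ * (cb 1 1)⁻¹ := by decide +kernel

theorem gen (D : Subgroup U6) (h : ∀ s r, cb s r ∈ D) (u : U6) (hu : u.s = 0) : u ∈ D := by
  have e : u = pd u.r u.v u.w u.p * xZ ((pd u.r u.v u.w u.p).c + u.c) := by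
    generalize hc : (pd u.r u.v u.w u.p).c = c
    rw [pd_eq, hc]; simp only [U6.mul_def]; ext1 <;> grind
  rw [e, z_eq]
  exact mul_mem (mul_mem (mul_mem (mul_mem (h ..) (h ..)) (h ..)) (h ..))
    (mul_mem (mul_mem (mul_mem (h ..) (h ..)) (inv_mem (h ..))) (inv_mem (h ..)))

/-- `Q₁` -/
def Q1 : Subgroup U6 where
  carrier := {u | u.s = 0}
  one_mem' := rfl
  mul_mem' := fun {a b} (h : _ = _) (h' : _ = _) => show a.s + b.s = 0 by rw [h, h', add_zero]
  inv_mem' := fun h => h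

theorem f10 (X : Subgroup U6) (hc : 1024 ≤ Nat.card X) (h : ∀ a ∈ X, ∀ b ∈ X, ∃ c, a * b * a⁻¹ * b⁻¹ = xZ c) (u : U6) :
    u ∈ X ↔ u.s = 0 := by
  have le : X ≤ Q1 := fun a ha => by_contra fun (n : a.s ≠ 0) => by
    have k : ∀ q ∈ X, (a * q).v = (q * a).v ∧ (a * q).p = (q * a).p := fun q hq => by
      obtain ⟨c, e⟩ := h a ha q hq
      rw [show a * q = xZ c * (q * a) by rw [← e]; group]
      simp [U6.mul_def]
    have := Nat.card_le_card_of_injective (fun q : X => (q.1.s, q.1.v, q.1.p, q.1.c)) fun q q' e => by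
      simp only [Prod.mk.injEq] at e
      obtain ⟨e1, e2, e3, e4⟩ := e
      obtain ⟨k1, k2⟩ := k _ q.2
      obtain ⟨k3, k4⟩ := k _ q'.2
      simp only [U6.mul_def] at k1 k2 k3 k4
      have e5 : q.1.r = q'.1.r := mul_left_cancel₀ n (by grind)
      exact Subtype.ext (U6.ext e1 e5 e2 (mul_left_cancel₀ n (by grind)) e3 e4)
    simp [CL.SG2.F4.card] at this hc
    omega
  have := Nat.card_le_card_of_injective (fun q : Q1 => (q.1.r, q.1.v, q.1.w, q.1.p, q.1.c)) fun q q' e => by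
    simp only [Prod.mk.injEq] at e
    exact Subtype.ext (U6.ext (q.2.trans q'.2.symm) e.1 e.2.1 e.2.2.1 e.2.2.2.1 e.2.2.2.2)
  rw [eq_of_le_of_card_ge le (this.trans (le_trans (by simp [CL.SG2.F4.card]) hc))]
  rfl

/-- `Q₂ / A` -/
abbrev E3 : Type := K4 × K4 × K4
/-- the projection -/
def pr (u : U6) : E3 := (u.s, u.v, u.w)
/-- a section -/
def lf (e : E3) : U6 := ⟨e.1, 0, e.2.1, e.2.2, 0, 0⟩
/-- the action of the torus -/
def tX (e : E3) : E3 := (.v * e.1, .v * e.2.1, .w * e.2.2)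
/-- the commutator map -/
def cm (e f : E3) : K4 × K4 := (f.1 ^ 2 * e.2.1 + f.1 * e.2.2 + e.1 ^ 2 * f.2.1 + e.1 * f.2.2,
  f.1 * e.2.1 ^ 2 + e.2.2 * f.2.1 + e.1 * f.2.1 ^ 2 + f.2.2 * e.2.1)

theorem few : ∀ d : E3, d ≠ 0 → (Finset.univ.filter fun c => cm d c = 0 ∧ cm d (tX c) = 0).card ≤ 4 := by decide +kernel
theorem tX_sum : ∀ e : E3, e + tX e + tX (tX e) = 0 := by decide +kernel
theorem e_add : ∀ e : E3, e + e = 0 := by decide +kernel

theorem cm_add (e e' f : E3) : cm (e + e') f = cm e f + cm e' f := by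
  simp only [cm, Prod.fst_add, Prod.snd_add, Prod.mk_add_mk, Prod.mk.injEq]; constructor <;> grind

theorem pr_mul {u : U6} (h : u.r = 0) (y : U6) : pr (u * y) = pr u + pr y := by simp [pr, U6.mul_def, h]

theorem pr_tor (u : U6) : pr (tor .v 1 u) = tX (pr u) := by
  simp only [pr, tor, tX, mul_one, show (.v : K4) ^ 2 = .w by decide]

theorem of_pr {u y : U6} (h : u.r = 0) (h' : y.r = 0) (e : pr y = pr u) : ∃ p c, y = u * xC p c := by
  simp only [pr, Prod.mk.injEq] at e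
  exact ⟨u.p + y.p, u.c + y.c, by simp only [U6.mul_def]; ext1 <;> grind⟩

theorem comm {u y : U6} (h : u.r = 0) (h' : y.r = 0) : u * y = y * u * xC (cm (pr u) (pr y)).1 (cm (pr u) (pr y)).2 := by
  simp only [U6.mul_def, cm, pr, h, h']; ext1 <;> grind

theorem r_mul {u y : U6} (h : u.r = 0) (h' : y.r = 0) : (u * y).r = 0 := by simp [U6.mul_def, h, h']

theorem th (θ : U6 → U6) (h1 : ∀ u, u.r = 0 → (θ u).r = 0 ∧ θ (θ u) = u ∧ θ (tor .v 1 u) = tor .v 1 (θ u))
    (h2 : ∀ u u', u.r = 0 → u'.r = 0 → θ (u * u') = θ u * θ u') (h3 : ∀ p c, θ (xC p c) = xC p c) (u : U6) (hu : u.r = 0) :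
    θ u = u := by
  let b : E3 → E3 := fun e => pr (θ (lf e))
  have hb : ∀ y, y.r = 0 → pr (θ y) = b (pr y) := fun y hy => by
    obtain ⟨p, c, e⟩ := of_pr (u := lf (pr y)) rfl hy rfl
    conv_lhs => rw [e, h2 _ _ rfl rfl, h3, pr_mul (h1 _ rfl).1]
    exact add_zero _
  have ba : ∀ e f, b (e + f) = b e + b f := fun e f => by
    rw [show e + f = pr (lf e * lf f) from (pr_mul (u := lf e) rfl (lf f)).symm, ← hb _ (r_mul rfl rfl), h2 _ _ rfl rfl,
      pr_mul (h1 _ rfl).1]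
  have bb : ∀ e, b (b e) = e := fun e => by rw [← hb _ (h1 _ rfl).1, (h1 _ rfl).2.1]; rfl
  have tr : ∀ {y : U6}, y.r = 0 → (tor .v 1 y).r = 0 := fun h => by simp [tor, h]
  have bX : ∀ e, b (tX e) = tX (b e) := fun e => by
    rw [← pr_tor, ← (h1 _ rfl).2.2, hb _ (tr rfl), pr_tor]; rfl
  have bc : ∀ e f, cm (b e) (b f) = cm e f := fun e f => by
    have := congrArg θ (comm (u := lf e) (y := lf f) rfl rfl)
    rw [h2 _ _ (r_mul rfl rfl) rfl, h2 _ _ rfl rfl, h2 _ _ rfl rfl, h3, comm (h1 _ rfl).1 (h1 _ rfl).1, mul_right_inj] at this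
    exact Prod.ext (congrArg U6.p this) (congrArg U6.c this)
  let δ : E3 →+ E3 := AddMonoidHom.mk' (fun e => b e + e) fun e f => by rw [ba]; abel
  have fx : ∀ {c}, c ∈ δ.ker → b c = c := fun {c} (h : b c + c = 0) => add_right_cancel (h.trans (e_add c).symm)
  have bi : ∀ e, b e = e := fun e => fx (by_contra fun n => by
    have k : ∀ c, b c = c → cm (δ e) c = 0 := fun c hc => by
      rw [show δ e = b e + e from rfl, cm_add, ← bc e c, hc]
      exact Prod.ext (CL.SG2.F4.add_self _) (CL.SG2.F4.add_self _)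
    have c1 : Nat.card δ.ker ≤ 4 := le_trans (by
      rw [← Fintype.card_subtype, ← Nat.card_eq_fintype_card]
      exact Nat.card_le_card_of_injective (fun c => ⟨c.1, k _ (fx c.2), k _ (by rw [bX, fx c.2])⟩)
        fun _ _ e => Subtype.ext (Subtype.mk.inj e)) (few _ n)
    have c2 : Nat.card δ.range ≤ Nat.card δ.ker := AddSubgroup.card_le_of_le (by
      rintro _ ⟨f, rfl⟩
      show b (b f + f) + (b f + f) = 0
      rw [ba, bb, add_comm f, e_add])
    have c3 := δ.ker.card_mul_index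
    rw [AddSubgroup.index_ker, show Nat.card E3 = 64 by simp [CL.SG2.F4.card]] at c3
    nlinarith)
  obtain ⟨p, c, e⟩ := of_pr hu (h1 u hu).1 (by rw [hb u hu, bi])
  have tC : ∀ y, tor .v 1 (y * xC p c) = tor .v 1 y * xC p c := fun y => by
    have : (.v : K4) ^ 3 = 1 := by decide
    simp only [U6.mul_def, tor, this]; ext1 <;> grind
  obtain ⟨p', c', e'⟩ := of_pr (u := 1) (y := u * tor .v 1 u * tor .v 1 (tor .v 1 u)) rfl
    (r_mul (r_mul hu (tr hu)) (tr (tr hu))) (by rw [pr_mul (r_mul hu (tr hu)), pr_mul hu, pr_tor, pr_tor, pr_tor, tX_sum]; rfl)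
  have e2 := congrArg θ e'
  rw [one_mul, h3, ← one_mul (xC p' c'), ← e', h2 _ _ (r_mul hu (tr hu)) (tr (tr hu)), h2 _ _ hu (tr hu),
    (h1 _ (tr hu)).2.2, (h1 _ hu).2.2, e, tC, tC] at e2
  have r1 := tr hu
  have r2 := tr r1
  generalize tor .v 1 (tor .v 1 u) = u2 at e2 r2
  generalize tor .v 1 u = u1 at e2 r1
  have e3 := congrArg U6.p e2
  have e4 := congrArg U6.c e2
  simp only [U6.mul_def, hu, r1, r2] at e3 e4
  rw [e, show p = 0 by grind, show c = 0 by grind]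
  exact mul_one u

end Ufx

theorem uf : UF := ⟨Ufx.gen, Ufx.f10, Ufx.th⟩

end CL.G2R
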