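/-
Project G2R: the fusion of `t` and `t z` in the centralizer of `x`.
-/
import Cfsg.Agent.G2R.Defs

set_option autoImplicit false
set_option linter.unusedSectionVars false

universe u

namespace CL.G2R
open Subgroup CL.Grp CL.L34
open scoped Pointwise

namespace F0

variable {G : Type u} [Group G] {L S : Subgroup G} {κ : U6 →* G} {x n h t g e d s : G} {φ : G → G}

/-- inner elements -/
def Inn (L : Subgroup G) (e : G) : Prop := ∃ l ∈ L, l * e ∈ centralizer (L : Set G)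

theorem nrm (hd : d ∈ normalizer (L : Set G)) (he : e ∈ L) : d * e * d⁻¹ ∈ L := (mem_normalizer_iff.1 hd e).1 he

theorem Inn.conj (i : Inn L e) (hd : d ∈ normalizer (L : Set G)) : Inn L (d * e * d⁻¹) := by
  obtain ⟨l, hl, k⟩ := i
  refine ⟨_, nrm hd hl, fun y hy => ?_⟩
  have := k _ (nrm (inv_mem hd) hy)
  calc _ = d * (d⁻¹ * y * d⁻¹⁻¹ * (l * e)) * d⁻¹ := by group
    _ = _ := by rw [this]; group

theorem cm (g : G) {a b : G} (e : a * b = b * a) : g * a * g⁻¹ * (g * b * g⁻¹) = g * b * g⁻¹ * (g * a * g⁻¹) := by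
  rw [conj_mul, conj_mul, e]

theorem cm' (k : e * (g * t * g⁻¹) = g * t * g⁻¹ * e) : g⁻¹ * e * g * t = t * (g⁻¹ * e * g) := by
  simpa [mul_assoc] using cm g⁻¹ k

theorem zc (u : U6) : u * xZ 1 = xZ 1 * u := by simp only [U6.mul_def]; ext1 <;> grind

theorem kc (κ : U6 →* G) {a b : U6} (e : a * b = b * a) : κ a * κ b = κ b * κ a := by rw [← map_mul, e, map_mul]

theorem conjC (u : U6) (p c : K4) : u⁻¹ * frob (xC p c) * u = xC (p ^ 2) (c ^ 2 + p ^ 2 * u.r) := by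
  simp only [U6.mul_def, U6.inv_def, frob]; ext1 <;> grind

theorem dd : ∀ r : K4, ∃ k, xZ .w * (xC (0 ^ 2) (.w ^ 2 + 0 ^ 2 * r))⁻¹ = xZ 1 ∧
    xC .w 0 * (xC (.w ^ 2) (0 ^ 2 + .w ^ 2 * r))⁻¹ = xC 1 k ∧
    xC .w .w * (xC (.w ^ 2) (.w ^ 2 + .w ^ 2 * r))⁻¹ = xZ 1 * xC 1 k ∧ (xC 1 k * xC 1 k = 1 ∧ xC 1 k ≠ 1) ∧
    xZ 1 * xC 1 k * (xZ 1 * xC 1 k) = 1 ∧ xZ 1 * xC 1 k ≠ 1 := by decide +kernel

variable (m : Md L κ x n h φ) (A : Api L κ x) (c : Lc L S κ t φ)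
include m c

theorem tL : t ∉ L := fun k => c.t1 (m.cen t k c.tK)

theorem split (i : Inn L e) (e2 : e * e = 1) (et : e * t = t * e) : ∃ l ∈ L, l * l = 1 ∧ (e = l ∨ e = l * t) := by
  obtain ⟨l, hl, k⟩ := i
  obtain ⟨h1, h2⟩ := sq_split m.cen (inv_mem hl) k (by rwa [inv_mul_cancel_left])
  exact ⟨l⁻¹, inv_mem hl, h1, (c.rk _ k h2 (Commute.mul_left (c.tK l hl) et).eq).imp
    (fun k => eq_inv_of_mul_eq_one_right k) fun k => by rw [← k, inv_mul_cancel_left]⟩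

include A

theorem fg (et : e * t = t * e) (dt : d * t = t * d) (e2 : e * e = 1)
    (k : e * (d * e * d⁻¹) = d * (d * e * d⁻¹) * d⁻¹) : e ∈ L := by
  have hd := c.cN d dt
  have i : Inn L e := by
    rcases A.idx e (c.cN e et) (d * e * d⁻¹) (mul_mem (mul_mem hd (c.cN e et)) (inv_mem hd)) with i | i | i
    · exact i
    · simpa [mul_assoc] using Inn.conj i (inv_mem hd)
    · rw [k] at i
      simpa [mul_assoc] using (Inn.conj i (inv_mem hd)).conj (inv_mem hd)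
  obtain ⟨l, hl, -, rfl | rfl⟩ := split m c i e2 et
  · exact hl
  have e1 : ∀ l, d * (l * t) * d⁻¹ = d * l * d⁻¹ * t := fun l => by rw [← conj_mul, dt, mul_inv_cancel_right]
  rw [e1, e1, ← c.tK _ (nrm hd hl) |>.symm, mul_assoc, ← mul_assoc t, c.tt, one_mul] at k
  exact absurd ((mul_mem_cancel_left (nrm hd (nrm hd hl))).1 (k ▸ mul_mem hl (nrm hd hl))) (tL m c)

theorem fg' {a : U6} (et : κ a * (g * t * g⁻¹) = g * t * g⁻¹ * κ a) (dt : d * (g * t * g⁻¹) = g * t * g⁻¹ * d)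
    {l l' : K4} (hd : ∀ u, d * κ u * d⁻¹ = κ (tor l l' u)) (k : a * a = 1 ∧ a * tor l l' a = tor l l' (tor l l' a)) :
    g⁻¹ * κ a * g ∈ L := by
  refine fg m A c (cm' et) (cm' dt) ?_ ?_
  · calc _ = g⁻¹ * (κ a * κ a) * g := by group
      _ = 1 := by rw [← map_mul, k.1, map_one, mul_one, inv_mul_cancel]
  · calc _ = g⁻¹ * (κ a * (d * κ a * d⁻¹)) * g := by group
      _ = g⁻¹ * (d * (d * κ a * d⁻¹) * d⁻¹) * g := by rw [hd, hd, ← map_mul, k.2]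
      _ = _ := by group

omit A in
theorem toZ {a b : U6} (ha : g⁻¹ * κ a * g ∈ L) (hb : g⁻¹ * κ b * g ∈ L) (k : a * b * a⁻¹ * b⁻¹ = xZ 1) :
    ∃ l ∈ L, l * (g⁻¹ * κ (xZ 1) * g) * l⁻¹ = κ (xZ 1) := by
  have e1 : g⁻¹ * κ (xZ 1) * g = g⁻¹ * κ a * g * (g⁻¹ * κ b * g) * (g⁻¹ * κ a * g)⁻¹ * (g⁻¹ * κ b * g)⁻¹ := by
    simp only [← k, map_mul, map_inv]; group
  obtain ⟨l, hl, e2⟩ := m.cls _ (e1 ▸ mul_mem (mul_mem (mul_mem ha hb) (inv_mem ha)) (inv_mem hb))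
    (by
      calc _ = g⁻¹ * (κ (xZ 1) * κ (xZ 1)) * g := by group
        _ = 1 := by rw [← map_mul, show xZ 1 * xZ 1 = 1 by decide +kernel, map_one, mul_one, inv_mul_cancel])
    fun e => absurd (m.inj (show κ (xZ 1) = κ 1 by simpa [mul_eq_one_iff_eq_inv] using e)) (by decide +kernel)
  refine ⟨l, hl, e2.resolve_right fun e3 => ?_⟩
  have k2 : ∀ a, l * (g⁻¹ * κ a * g) * l⁻¹ * κ (xB 1) = κ (xB 1) * (l * (g⁻¹ * κ a * g) * l⁻¹) := fun a => by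
    rw [← e3]; exact cm l (by simpa using cm g⁻¹ (kc κ (zc a)))
  refine m.ncy _ (mul_mem (mul_mem hl ha) (inv_mem hl)) _ (mul_mem (mul_mem hl hb) (inv_mem hl)) (k2 a) (k2 b) ?_
  rw [← e3, e1]; group

theorem caseZ (k : g * t * g⁻¹ = κ (xZ 1) ∨ g * t * g⁻¹ = t * κ (xZ 1)) :
    ∃ g : G, g * x = x * g ∧ g * t * g⁻¹ = t * κ (xZ 1) := by
  have cs : ∀ l ∈ L, l * κ (xZ 1) = κ (xZ 1) * l → l * (g * t * g⁻¹) = g * t * g⁻¹ * l := fun l hl e => by
    rcases k with k | k <;> rw [k]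
    exacts [e, (Commute.mul_right (c.tK l hl) e).eq]
  have ck := fun u => cs _ (m.mem u) (kc κ (zc u))
  have xz : x * κ (xZ 1) = κ (xZ 1) * x := mul_inv_eq_iff_eq_mul.1 ((m.ax _).trans (congrArg κ (by decide +kernel)))
  have nz : n * κ (xZ 1) = κ (xZ 1) * n := mul_inv_eq_iff_eq_mul.1 ((m.an 0 0 0 0 1).trans (congrArg κ (by decide +kernel)))
  have f := fun a => fg' m A c (ck a) (cs x m.xL xz) m.ax
  obtain ⟨l, hl, e1⟩ := toZ m c (f (xA 1) (by decide +kernel)) (f (xB 1) (by decide +kernel)) (by decide +kernel)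
  rcases k with k | k
  · refine absurd ?_ (tL m c)
    have := mul_mem (mul_mem (inv_mem hl) (m.mem (xZ 1))) hl
    rw [← e1, ← k] at this
    simpa [mul_assoc] using this
  have h1 := f (xa 1) (by decide +kernel)
  have h2 : g⁻¹ * n * g ∈ L := by
    have := mul_mem (mul_mem h1 (nrm (c.cN _ (cm' (cs n m.nL nz))) h1)) h1
    rw [m.na]; simpa [mul_assoc] using this
  have h3 : g⁻¹ * x * g ∈ L := by
    have := mul_mem h2 (nrm (c.cN _ (cm' (cs x m.xL xz))) (inv_mem h2))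
    rwa [show g⁻¹ * n * g * (g⁻¹ * x * g * (g⁻¹ * n * g)⁻¹ * (g⁻¹ * x * g)⁻¹) = g⁻¹ * (n * x * n⁻¹ * x⁻¹) * g by group,
      m.nx, ← mul_inv_rev, inv_eq_of_mul_eq_one_right (show x * x * x = 1 by rw [← m.x3, pow_succ, sq])] at this
  obtain ⟨l', hl', -, e2⟩ := m.c3 _ (mul_mem (mul_mem hl h3) (inv_mem hl))
    (by rw [← e1]; exact cm l (by simpa using cm g⁻¹ xz))
    (by rw [conj_pow, show g⁻¹ * x * g = g⁻¹ * x * g⁻¹⁻¹ by rw [inv_inv], conj_pow, m.x3]; group) fun e => by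
      have e3 : x = 1 := by simpa [mul_eq_one_iff_eq_inv] using e
      exact absurd (m.inj (by simpa [e3] using m.ax (xa 1) : κ (xa 1) = κ (tor .v 1 (xa 1)))) (by decide +kernel)
  refine ⟨g * (l' * l)⁻¹, ?_, ?_⟩
  · conv_lhs => rw [← e2]
    group
  · rw [← k, mul_assoc g, c.tK _ (inv_mem (mul_mem hl' hl))]; group

theorem caseY (k : g * t * g⁻¹ = κ (xB 1) ∨ g * t * g⁻¹ = t * κ (xB 1)) :
    ∃ g : G, g * x = x * g ∧ g * t * g⁻¹ = t * κ (xZ 1) := by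
  have cs : ∀ l ∈ L, l * κ (xB 1) = κ (xB 1) * l → l * (g * t * g⁻¹) = g * t * g⁻¹ * l := fun l hl e => by
    rcases k with k | k <;> rw [k]
    exacts [e, (Commute.mul_right (c.tK l hl) e).eq]
  have hy : h * κ (xB 1) = κ (xB 1) * h := mul_inv_eq_iff_eq_mul.1 ((m.ah _).trans (congrArg κ (by decide +kernel)))
  have f := fun a e => fg' m A c (cs _ (m.mem a) (kc κ e)) (cs h m.hL hy) m.ah
  obtain ⟨l, hl, e1⟩ := toZ m c (f (xb 1) (by decide +kernel) (by decide +kernel))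
    (f (xC 1 0) (by decide +kernel) (by decide +kernel)) (by decide +kernel)
  have e2 : κ (xA 1) * κ (xB 1) * (κ (xA 1))⁻¹ = κ (xB 1) * κ (xZ 1) := by
    simp only [← map_mul, ← map_inv]; exact congrArg κ (by decide +kernel)
  have e3 : κ (xA 1) * (g * t * g⁻¹) * (κ (xA 1))⁻¹ = g * t * g⁻¹ * κ (xZ 1) := by
    rcases k with k | k <;> rw [k]
    · exact e2
    · rw [← conj_mul, e2, c.tK _ (m.mem _), mul_inv_cancel_right, mul_assoc]
  refine caseZ m A c (g := l * g⁻¹ * κ (xA 1) * g) (.inr ?_)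
  calc _ = l * g⁻¹ * (κ (xA 1) * (g * t * g⁻¹) * (κ (xA 1))⁻¹) * g * l⁻¹ := by group
    _ = l * t * (g⁻¹ * κ (xZ 1) * g) * l⁻¹ := by rw [e3]; group
    _ = t * (l * (g⁻¹ * κ (xZ 1) * g) * l⁻¹) := by rw [c.tK l hl]; group
    _ = _ := by rw [e1]

theorem inner (h1 : g * t * g⁻¹ ≠ t) (h2 : g * t * g⁻¹ * t = t * (g * t * g⁻¹)) (i : Inn L (g * t * g⁻¹)) :
    ∃ g : G, g * x = x * g ∧ g * t * g⁻¹ = t * κ (xZ 1) := by
  obtain ⟨l, hl, l2, k⟩ := split m c i (by rw [conj_mul, c.tt]; group) h2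
  obtain ⟨y, hy, e⟩ := m.cls l hl l2 (by
    rintro rfl
    exact k.elim (fun k => c.t1 (by simpa using k)) fun k => h1 (by simpa using k))
  have k' : y * g * t * (y * g)⁻¹ = y * l * y⁻¹ ∨ y * g * t * (y * g)⁻¹ = t * (y * l * y⁻¹) := k.imp
    (fun k => by rw [← k]; group) fun k => by
      calc _ = y * (g * t * g⁻¹) * y⁻¹ := by group
        _ = _ := by rw [k, c.tK l hl, ← mul_assoc, c.tK y hy]; group
  exact e.elim (fun e => caseZ m A c (e ▸ k')) fun e => caseY m A c (e ▸ k')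

theorem outer {a b : U6} (h1 : b * b = 1 ∧ b ≠ 1) (e : κ a * (g * t * g⁻¹) * (κ a)⁻¹ = κ b * (g * t * g⁻¹)) :
    g⁻¹ * κ b * g * t = t * (g⁻¹ * κ b * g) ∧ (Inn L (g⁻¹ * κ b * g) →
      ∃ g : G, g * x = x * g ∧ g * t * g⁻¹ = t * κ (xZ 1)) := by
  have s2 : g * t * g⁻¹ * (g * t * g⁻¹) = 1 := by rw [conj_mul, c.tt]; group
  have b2 : κ b * κ b = 1 := by rw [← map_mul, h1.1, map_one]
  have e1 : κ b * (g * t * g⁻¹) = g * t * g⁻¹ * κ b := by
    have : κ b * (g * t * g⁻¹) * (κ b * (g * t * g⁻¹)) = 1 := by rw [← e, conj_mul, s2]; group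
    rw [eq_inv_of_mul_eq_one_left this, mul_inv_rev, inv_eq_of_mul_eq_one_right s2, inv_eq_of_mul_eq_one_right b2]
  refine ⟨cm' e1, fun ⟨l, hl, k⟩ => ?_⟩
  have e2 : g⁻¹ * κ a * g * t * (g⁻¹ * κ a * g)⁻¹ = g⁻¹ * κ b * g * t := by
    calc _ = g⁻¹ * (κ a * (g * t * g⁻¹) * (κ a)⁻¹) * g := by group
      _ = _ := by rw [e]; group
  refine inner m A c (g := g⁻¹ * κ a * g) ?_ ?_ ⟨l, hl, ?_⟩ <;> rw [e2]
  · exact fun k => h1.2 (m.inj (show κ b = κ 1 by simpa [mul_eq_one_iff_eq_inv] using k))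
  · exact (Commute.mul_left (cm' e1) rfl).eq
  · exact mul_assoc l _ t ▸ mul_mem k c.tK

end F0

open F0 in
theorem f0S : F0S.{u} := fun G _ _ L S κ x n h φ t m A c ⟨g, h1, h2⟩ => by
  have := Fact.mk Nat.prime_two
  obtain ⟨k, hk, le⟩ := c.syl.exists_conj_le (U := zpowers (g * t * g⁻¹))
    (IsPGroup.of_card (n := 1) (by rw [Nat.card_zpowers, orderOf_eq_prime (by rw [sq, conj_mul, c.tt]; group)
      (fun e => c.t1 (by simpa using e)), pow_one])) (zpowers_le.2 (mem_centralizer_singleton_iff.2 h2))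
  have kt := mem_centralizer_singleton_iff.1 hk
  have hs : k * g * t * (k * g)⁻¹ ∈ S := by
    simpa [mul_assoc] using le (conj_mem_conj_smul k (mem_zpowers (g * t * g⁻¹)))
  have e0 : k * g * t * (k * g)⁻¹ = k * (g * t * g⁻¹) * k⁻¹ := by group
  have e1 : k * t * k⁻¹ = t := by rw [kt, mul_inv_cancel_right]
  have h3 : k * g * t * (k * g)⁻¹ ≠ t := fun e => h1 (mul_left_cancel (mul_right_cancel (e0.symm.trans (e.trans e1.symm))))
  have h4 : k * g * t * (k * g)⁻¹ * t = t * (k * g * t * (k * g)⁻¹) := by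
    have := cm k h2
    rwa [e1, ← e0] at this
  generalize k * g = g at hs h3 h4
  obtain ⟨u, i | f⟩ := c.act _ hs
  · exact inner m A c h3 h4 ⟨_, m.mem u, i⟩
  have d : ∀ p q, κ (xC p q) * (g * t * g⁻¹) * (κ (xC p q))⁻¹ =
      κ (xC p q * (xC (p ^ 2) (q ^ 2 + p ^ 2 * u.r))⁻¹) * (g * t * g⁻¹) := fun p q => by
    simp only [← conjC, map_mul, map_inv, ← m.fk, ← f _ (m.mem _)]; group
  obtain ⟨j, d1, d2, d3, d4, d5⟩ := dd u.r
  have o1 := outer m A c (b := xZ 1) (by decide +kernel) (d1 ▸ d 0 .w)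
  have o2 := outer m A c d4 (d2 ▸ d .w 0)
  have o3 := outer m A c d5 (d3 ▸ d .w .w)
  rcases A.idx _ (c.cN _ o1.1) _ (c.cN _ o2.1) with i | i | i
  exacts [o1.2 i, o2.2 i, o3.2 (by simpa [Inn, mul_assoc] using i)]

end CL.G2R
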