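/-
Project G2R: the fixed points of `t` on a conjugate of `Q` normalized by `S`.
-/
import Cfsg.Agent.G2R.Defs
import Cfsg.Agent.L34.TB

set_option autoImplicit false
set_option linter.unusedSectionVars false

universe u

namespace CL.G2R
open Subgroup CL.Grp CL.L34
open scoped commutatorElement

variable {G : Type u} [Group G] {L S Q : Subgroup G} {κ : U6 →* G} {t x g y q : G} {φ : G → G} {ι : Heis F4 →* G} {ν : F4}
  {Φ : Heis (R16 ν) →* G}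

/-- the group `W` -/
def fxW (Φ : Heis (R16 ν) →* G) : Subgroup G := (tbZ (R16 ν)).map Φ

theorem fx_memW : y ∈ fxW Φ ↔ ∃ u, y = Φ ⟨0, 0, u⟩ :=
  ⟨fun ⟨p, h, e⟩ => ⟨p.c, by rw [← e, ← tb_eqZ h]⟩, fun ⟨_, e⟩ => ⟨_, ⟨rfl, rfl⟩, e.symm⟩⟩

theorem fx_w (u : R16 ν) : Φ ⟨0, 0, u⟩ ∈ fxW Φ := fx_memW.2 ⟨u, rfl⟩

theorem fx_sq (h : y ∈ fxW Φ) : y * y = 1 := by
  obtain ⟨p, h, rfl⟩ := h
  rw [← map_mul, tb_sqZ h, map_one]

theorem fx_add (u v : R16 ν) : Φ ⟨0, 0, u + v⟩ = Φ ⟨0, 0, u⟩ * Φ ⟨0, 0, v⟩ := by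
  rw [← map_mul]; exact congrArg Φ (Heis.ext (by simp) (by simp) (by simp))

theorem fx_cardW (inj : Function.Injective Φ) : Nat.card (fxW Φ) = 16 := by
  rw [fxW, card_map_of_injective inj, tb_cardZ, card_R16]

theorem fx_inv (tt : t * t = 1) (y : G) : t * ⁅t, y⁆ * t⁻¹ = ⁅t, y⁆⁻¹ := by
  simp only [commutatorElement_def, mul_inv_rev, inv_eq_of_mul_eq_one_right tt, inv_inv, ← mul_assoc, tt, one_mul]

theorem fx_fix (tt : t * t = 1) (h : ⁅t, y⁆ ∈ fxW Φ) : ⁅t, y⁆ * t = t * ⁅t, y⁆ :=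
  (mul_inv_eq_iff_eq_mul.1 ((fx_inv tt y).trans (inv_eq_of_mul_eq_one_right (fx_sq h)))).symm

theorem fx_div (t x y : G) : ⁅t, x⁻¹ * y⁆ = x⁻¹ * (⁅t, x⁆⁻¹ * ⁅t, y⁆) * x := by simp only [commutatorElement_def]; group

theorem fx_zc (c : K4) (u : U6) : xZ c * u = u * xZ c := by simp only [U6.mul_def]; ext1 <;> grind

theorem fx_mv : ∀ r p c : K4, xb r * xC p c * (xb r)⁻¹ = xC p c * xZ (r * p) := by decide +kernel

namespace Qd
variable (D : Qd Φ Q)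
include D

theorem WQ : fxW Φ ≤ Q := by rintro _ ⟨p, -, rfl⟩; exact D.mem p

theorem cW (hq : q ∈ Q) (hy : y ∈ fxW Φ) : q * y = y * q := by
  obtain ⟨u, rfl⟩ := fx_memW.1 hy; exact D.cen q hq u

theorem nW (hg : g ∈ normalizer (Q : Set G)) (hy : y ∈ fxW Φ) : g * y * g⁻¹ ∈ fxW Φ := by
  obtain ⟨u, rfl⟩ := fx_memW.1 hy; exact fx_memW.2 (D.nw g hg u)

theorem two (hq : q ∈ Q) : Two q := ⟨2, by
  rw [pow_two, pow_mul, pow_two, pow_two q, fx_sq (fx_memW.2 (D.sq q hq))]⟩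

theorem exf (inj : Function.Injective Φ) (hg : g ∈ normalizer (Q : Set G)) :
    ∃ f : R16 ν →+ R16 ν, Semi f ∧ ∀ u, g * Φ ⟨0, 0, u⟩ * g⁻¹ = Φ ⟨0, 0, f u⟩ := by
  choose f hf using D.nw g hg
  refine ⟨AddMonoidHom.mk' f fun a b => congrArg Heis.c (inj (a₁ := ⟨0, 0, _⟩) (a₂ := ⟨0, 0, _⟩) ?_), fun r => ?_, hf⟩
  · rw [fx_add (f a), ← hf, ← hf, ← hf, fx_add, conj_mul]
  · obtain ⟨r', h⟩ := D.semi g hg r
    exact ⟨r', fun u => congrArg Heis.c (inj ((hf _).symm.trans (h u _ (hf u))))⟩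

theorem conj (g : G) : Qd ((MulAut.conj g).toMonoidHom.comp Φ) (Q.map (MulAut.conj g).toMonoidHom) := by
  have n : ∀ h ∈ normalizer (Q.map (MulAut.conj g).toMonoidHom : Set G), g⁻¹ * h * g ∈ normalizer (Q : Set G) :=
    fun h hh => by rwa [← conj_smul_eq_map, normalizer_conj_smul, mem_conj_smul_iff] at hh
  have e : ∀ h y z : G, g⁻¹ * h * g * y * (g⁻¹ * h * g)⁻¹ = z ↔ h * (g * y * g⁻¹) * h⁻¹ = g * z * g⁻¹ := fun h y z =>
    ⟨fun e => by rw [← e]; group, fun e => by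
      rw [show g⁻¹ * h * g * y * (g⁻¹ * h * g)⁻¹ = g⁻¹ * (h * (g * y * g⁻¹) * h⁻¹) * g by group, e]; group⟩
  refine ⟨fun p => mem_map_of_mem _ (D.mem p), ?_, ?_, ?_, fun h hh u => ?_, fun h hh r => ?_⟩
  · rintro _ ⟨q, hq, rfl⟩ u
    rw [MonoidHom.comp_apply, ← map_mul, D.cen q hq, map_mul]
  · rintro _ ⟨q, hq, rfl⟩ _ ⟨q', hq', rfl⟩
    obtain ⟨u, h⟩ := D.cm q hq q' hq'
    exact ⟨u, by rw [MonoidHom.comp_apply, ← h]; simp only [map_mul, map_inv]⟩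
  · rintro _ ⟨q, hq, rfl⟩
    obtain ⟨u, h⟩ := D.sq q hq
    exact ⟨u, by rw [MonoidHom.comp_apply, ← h, map_mul]⟩
  · exact (D.nw _ (n h hh) u).imp fun _ k => (e _ _ _).1 k
  · exact (D.semi _ (n h hh) r).imp fun _ k u u' k' => (e _ _ _).1 (k u u' ((e _ _ _).2 k'))

variable [Finite G]

theorem cnt (inj : Function.Injective Φ) (tt : t * t = 1) (tN : t ∈ normalizer (Q : Set G)) :
    4 ≤ Nat.card (fxW Φ ⊓ centralizer {t} : Subgroup G) ∧ (2 ^ 20 ≤ Nat.card Q →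
      Nat.card (fxW Φ ⊓ centralizer {t} : Subgroup G) ≤ 4 → 1024 ≤ Nat.card (Q ⊓ centralizer {t} : Subgroup G)) := by
  have cQ : ∀ q ∈ Q, ⁅t, q⁆ ∈ Q := fun q hq => mul_mem ((mem_normalizer_iff.1 tN q).1 hq) (inv_mem hq)
  have ct : ∀ {x y : G}, ⁅t, x⁆ = ⁅t, y⁆ → x⁻¹ * y ∈ centralizer {t} := fun {x y} e =>
    mem_centralizer_singleton_iff.2 (commutatorElement_eq_one_iff_mul_comm.1 (by rw [fx_div, e]; group)).symm
  have cw : ∀ y ∈ fxW Φ, ⁅t, y⁆ ∈ fxW Φ := fun y hy => mul_mem (D.nW tN hy) (inv_mem hy)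
  have k1 := tb_le (fxW Φ) (fxW Φ ⊓ centralizer {t}) (T := (fxW Φ ⊓ centralizer {t} : Subgroup G))
    (fun y => ⟨⁅t, (y : G)⁆, cw _ y.2, mem_centralizer_singleton_iff.2 (fx_fix tt (cw _ y.2))⟩)
    fun x y e => ⟨(fxW Φ).mul_mem (inv_mem x.2) y.2, ct (congrArg Subtype.val e)⟩
  rw [fx_cardW inj] at k1
  refine ⟨by nlinarith, fun h1 h2 => ?_⟩
  let C : Subgroup G :=
    { carrier := {q | q ∈ Q ∧ ⁅t, q⁆ ∈ fxW Φ}
      one_mem' := ⟨one_mem _, by simp⟩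
      mul_mem' := fun {a b} ha hb => ⟨mul_mem ha.1 hb.1, by
        rw [show ⁅t, a * b⁆ = ⁅t, a⁆ * (a * ⁅t, b⁆ * a⁻¹) by simp only [commutatorElement_def]; group]
        exact mul_mem ha.2 (D.nW (le_normalizer ha.1) hb.2)⟩
      inv_mem' := fun {a} ha => ⟨inv_mem ha.1, by
        rw [show ⁅t, a⁻¹⁆ = a⁻¹ * ⁅t, a⁆⁻¹ * a⁻¹⁻¹ by simp only [commutatorElement_def]; group]
        exact D.nW (le_normalizer (inv_mem ha.1)) (inv_mem ha.2)⟩ }
  have k2 := tb_le Q C (T := C ⧸ (fxW Φ).subgroupOf C) (fun q => QuotientGroup.mk ⟨⁅t, (q : G)⁆, cQ _ q.2, by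
      rw [commutatorElement_def, fx_inv tt, ← mul_inv_rev]
      exact inv_mem (fx_memW.2 (D.sq _ (cQ _ q.2)))⟩)
    fun x y e => ⟨mul_mem (inv_mem x.2) y.2, by
      rw [fx_div]
      simpa using D.nW (le_normalizer (inv_mem x.2)) (mem_subgroupOf.1 (QuotientGroup.eq.1 e))⟩
  have k3 := ((fxW Φ).subgroupOf C).card_mul_index
  rw [Nat.card_congr (subgroupOfEquivOfLe (fun y hy => ⟨D.WQ hy, cw y hy⟩ : fxW Φ ≤ C)).toEquiv,
    fx_cardW inj, index_eq_card] at k3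
  have k4 := tb_le C (Q ⊓ centralizer {t}) (T := (fxW Φ ⊓ centralizer {t} : Subgroup G))
    (fun y => ⟨⁅t, (y : G)⁆, y.2.2, mem_centralizer_singleton_iff.2 (fx_fix tt y.2.2)⟩)
    fun x y e => ⟨Q.mul_mem (inv_mem x.2.1) y.2.1, ct (congrArg Subtype.val e)⟩
  rw [← k3] at k2 k4
  generalize Nat.card (C ⧸ (fxW Φ).subgroupOf C) = a at k2 k4
  have : 256 ≤ a := by nlinarith
  nlinarith

end Qd

namespace Db
variable (B : Db L κ t x ι Φ) (tt : t * t = 1)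
include B tt

theorem cj (p : Heis (R16 ν)) : Φ p * t * (Φ p)⁻¹ = t * Φ (⟨star p.a, star p.b, star p.c⟩ * p⁻¹) := by
  rw [map_mul, ← B.act, map_inv, inv_eq_of_mul_eq_one_right tt, ← mul_assoc, ← mul_assoc, ← mul_assoc, tt, one_mul]

theorem cj' {p : Heis (R16 ν)} (h : p.a = 0 ∨ p.b = 0) : Φ p * t * (Φ p)⁻¹ = t * ι ⟨p.a.im, p.b.im, p.c.im⟩ := by
  have e : ∀ r : R16 ν, star r - r = ⟨r.im, 0⟩ := fun ⟨a, b⟩ => by
    rw [star_add]; exact QuadraticAlgebra.ext (by simp) (by simp)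
  rw [B.cj tt, ← B.ext, ← e, ← e, ← e]
  refine congrArg (fun p => t * Φ p) (Heis.ext (by simp [sub_eq_add_neg]) (by simp [sub_eq_add_neg]) ?_)
  rcases h with h | h <;> simp [h, sub_eq_add_neg]

theorem tA (p c : K4) : ∃ y, y * t * y⁻¹ = t * κ (xC p c) := by
  obtain ⟨a, c', e⟩ := (B.aA _).2 ⟨p, c, rfl⟩
  exact ⟨_, e ▸ B.cj' tt (p := ⟨⟨0, a⟩, 0, ⟨0, c'⟩⟩) (.inr rfl)⟩

theorem tB (r : K4) : ∃ y, y * t * y⁻¹ = t * κ (xb r) := by
  obtain ⟨a, c', e⟩ := (B.aB _).2 ⟨r, 0, rfl⟩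
  exact ⟨_, e ▸ B.cj' tt (p := ⟨0, ⟨0, a⟩, ⟨0, c'⟩⟩) (.inl rfl)⟩

theorem wact (c : K4) : ∃ y ∈ fxW Φ, y * t * y⁻¹ = t * κ (xZ c) := by
  obtain ⟨c', e⟩ := (B.aV _).2 ⟨c, rfl⟩
  exact ⟨_, fx_w _, e ▸ B.cj' tt (p := ⟨0, 0, ⟨0, c'⟩⟩) (.inl rfl)⟩

omit tt in
theorem VW (c : K4) : κ (xZ c) ∈ fxW Φ := by
  obtain ⟨c', e⟩ := (B.aV _).2 ⟨c, rfl⟩
  rw [e, ← B.ext]; exact fx_w _

theorem tnW : ¬ ∀ y ∈ fxW Φ, y * t = t * y := fun h => by
  have := B.cj' tt (p := ⟨0, 0, ⟨0, 1⟩⟩) (.inl rfl)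
  rw [h _ (fx_w _), mul_inv_cancel_right, left_eq_mul, ← B.ext, map_eq_one_iff _ B.inj] at this
  exact absurd (congrArg (fun p : Heis (R16 ν) => p.c.re) this) (by show (1 : F4) ≠ 0; decide)

end Db

section Core
variable [Finite G] (uf : UF) (alg : AlgS) (inj : Function.Injective κ) (mem : ∀ u, κ u ∈ L) (C : Lc L S κ t φ)
  (A : Sa S κ t) (D : Qd Φ Q) (jnj : Function.Injective Φ) (nS : S ≤ normalizer (Q : Set G))
  (big : ∀ g : G, g * t * g⁻¹ ∉ Q) (tA : ∀ p c, ∃ y, y * t * y⁻¹ = t * κ (xC p c))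
include mem C D nS

theorem fx_leS : Q ⊓ centralizer {t} ≤ S := by
  have hQ : IsPGroup 2 Q := fun q => (D.two q.2).imp fun _ e => Subtype.ext e
  have := C.syl.eq_of_le (U := (S ⊔ Q) ⊓ centralizer {t}) (C.syl.isPGroup.to_sup_of_normal_right' hQ nS).to_inf_left
    (le_inf le_sup_left C.syl.le) inf_le_right
  exact (inf_le_inf_right _ le_sup_right).trans this.le

include alg inj A jnj big tA

theorem fx_W0 (hy : y ∈ fxW Φ) (yt : y * t = t * y) : ∃ c, y = κ (xZ c) := by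
  have ct : ∀ u, κ u * t = t * κ u := fun u => C.tK _ (mem u)
  have cl : ∀ e ∈ fxW Φ ⊓ centralizer {t}, ∀ u, κ u * e * (κ u)⁻¹ ∈ fxW Φ ⊓ centralizer {t} := fun e he u =>
    ⟨D.nW (nS (C.TS u)) he.1, (centralizer {t}).mul_mem (mul_mem (mem_centralizer_singleton_iff.2 (ct u)) he.2)
      (inv_mem (mem_centralizer_singleton_iff.2 (ct u)))⟩
  have k : ∀ e ∈ fxW Φ, e * t = t * e → ∃ p c, e = κ (xC p c) := fun e he et => by
    obtain ⟨p, c, h | h⟩ := A.sa (fxW Φ ⊓ centralizer {t}) ((inf_le_inf_right _ D.WQ).trans (fx_leS mem C D nS))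
      (fun e he => fx_sq he.1) (fx_cardW jnj ▸ card_le_of_le inf_le_left) cl e ⟨he, mem_centralizer_singleton_iff.2 et⟩
    · exact ⟨p, c, h⟩
    · obtain ⟨z, hz⟩ := tA p c
      exact absurd (D.WQ he) (by rw [h, ct, ← hz]; exact big z)
  obtain ⟨p, c, rfl⟩ := k y hy yt
  by_cases hp : p = 0
  · exact ⟨c, by rw [hp]⟩
  have VW : ∀ c', κ (xZ c') ∈ fxW Φ := fun c' => by
    have := (cl _ ⟨hy, mem_centralizer_singleton_iff.2 yt⟩ (xb (c' * p⁻¹))).1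
    rw [← map_inv, ← map_mul, ← map_mul, fx_mv, inv_mul_cancel_right₀ hp, map_mul] at this
    exact (mul_mem_cancel_left hy).1 this
  let V : AddSubgroup (R16 ν) :=
    { carrier := {u | ∃ c, Φ ⟨0, 0, u⟩ = κ (xZ c)}
      zero_mem' := ⟨0, (map_one Φ).trans (map_one κ).symm⟩
      add_mem' := fun ⟨a, ha⟩ ⟨b, hb⟩ => ⟨a + b, by
        rw [fx_add, ha, hb, ← map_mul]; exact congrArg κ (by simp [U6.mul_def])⟩
      neg_mem' := fun {u} ⟨a, ha⟩ => ⟨a, by rwa [neg_eq_of_add_eq_zero_right (add_self_R16 u)]⟩ }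
  have cV : Nat.card V = 4 := by
    choose a ha using fun c => fx_memW.1 (VW c)
    rw [← Nat.card_eq_of_bijective (fun c => (⟨a c, c, (ha c).symm⟩ : V)) ⟨fun c c' e => congrArg U6.c (inj (a₁ := xZ c) (a₂ := xZ c') (by
      rw [ha, ha, show a c = a c' from congrArg Subtype.val e])), fun ⟨u, c, e⟩ =>
        ⟨c, Subtype.ext (congrArg Heis.c (jnj ((ha c).symm.trans e.symm)))⟩⟩, Nat.card_eq_fintype_card]
    rfl
  obtain ⟨f0, s0, h0⟩ := D.exf jnj (nS C.tS)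
  obtain ⟨f1, s1, h1⟩ := D.exf jnj (nS (C.TS (xb 1)))
  obtain ⟨f2, s2, h2⟩ := D.exf jnj (nS (C.TS (xb .w)))
  have ex : ∀ {a b : R16 ν}, Φ ⟨0, 0, a⟩ = Φ ⟨0, 0, b⟩ → a = b := fun e => congrArg Heis.c (jnj e)
  have cc : ∀ a b y : G, a * (b * y * b⁻¹) * a⁻¹ = a * b * y * (a * b)⁻¹ := fun a b y => by group
  have fx : ∀ u, f0 u = u ↔ Φ ⟨0, 0, u⟩ * t = t * Φ ⟨0, 0, u⟩ := fun u =>
    ⟨fun e => (mul_inv_eq_iff_eq_mul.1 ((h0 u).trans (by rw [e]))).symm, fun e => ex (by rw [← h0, ← e, mul_inv_cancel_right])⟩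
  obtain ⟨u, hu⟩ := fx_memW.1 hy
  refine (alg ν f0 f1 f2 V s0 s1 s2 (fun u => ⟨ex ?_, ex ?_, ex ?_, ex ?_⟩) cV ?_ (fun e e0 eV => ?_) u
    ((fx u).2 (hu ▸ yt))).imp fun _ e => hu.trans e
  · rw [← h0, ← h0, cc, C.tt]; group
  · rw [← h1, ← h1, cc, ← map_mul, show xb 1 * xb 1 = 1 by decide +kernel, map_one]; group
  · rw [← h2, ← h2, cc, ← map_mul, show xb .w * xb .w = 1 by decide +kernel, map_one]; group
  · rw [← h1, ← h2, ← h2, ← h1, cc, cc, ← map_mul, ← map_mul, show xb 1 * xb .w = xb .w * xb 1 by decide +kernel]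
  · rintro u ⟨c, e⟩
    refine ⟨(fx u).2 (e ▸ ct _), ex ?_, ex ?_⟩
    · rw [← h1, e, ← map_mul, ← fx_zc, map_mul, mul_inv_cancel_right]
    · rw [← h2, e, ← map_mul, ← fx_zc, map_mul, mul_inv_cancel_right]
  · obtain ⟨p', c', e'⟩ := k _ (fx_w e) ((fx e).1 e0)
    have m : ∀ r, r ≠ 0 → κ (xb r) * Φ ⟨0, 0, e⟩ * (κ (xb r))⁻¹ ≠ Φ ⟨0, 0, e⟩ := fun r hr h => by
      rw [e', ← map_inv, ← map_mul, ← map_mul, fx_mv, inj.eq_iff, mul_eq_left] at h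
      exact eV ⟨c', by rw [e', (mul_eq_zero.1 (congrArg U6.c h)).resolve_left hr]⟩
    refine ⟨fun h => m 1 one_ne_zero (by rw [h1, h]), fun h => m .w (by decide) (by rw [h2, h]),
      fun h => m .v (by decide) ?_⟩
    rw [show xb .v = xb 1 * xb .w by decide +kernel, map_mul, ← cc, h2, h1, h]

include uf

theorem fx_core (tB : ∀ r, ∃ y, y * t * y⁻¹ = t * κ (xb r)) (card : 2 ^ 20 ≤ Nat.card Q) :
    (∀ c, κ (xZ c) ∈ fxW Φ) ∧ ∀ y, (y ∈ Q ∧ y * t = t * y) ↔ ∃ u : U6, u.s = 0 ∧ y = κ u := by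
  have ct : ∀ u, Commute t (κ u) := fun u => (C.tK _ (mem u)).symm
  have W0 := fun y => fx_W0 (y := y) alg inj mem C A D jnj nS big tA
  obtain ⟨c1, c2⟩ := D.cnt jnj C.tt (nS C.tS)
  have zV : ∀ c, κ (xZ c) ∈ fxW Φ := by
    have b := (Nat.bijective_iff_injective_and_card fun c : {c // κ (xZ c) ∈ fxW Φ} => c.1).2 ⟨Subtype.val_injective,
      le_antisymm (Finite.card_subtype_le _) (le_trans (by rw [Nat.card_eq_fintype_card]; rfl) (c1.trans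
        (Nat.card_le_card_of_surjective (fun c : {c // κ (xZ c) ∈ fxW Φ} =>
          (⟨κ (xZ c), c.2, mem_centralizer_singleton_iff.2 (ct _).symm⟩ : (fxW Φ ⊓ centralizer {t} : Subgroup G))) fun y => by
        obtain ⟨c, e⟩ := W0 y y.2.1 (mem_centralizer_singleton_iff.1 y.2.2)
        exact ⟨⟨c, e ▸ y.2.1⟩, Subtype.ext e.symm⟩)))⟩
    exact fun c => (b.2 c).elim fun a e => e ▸ a.2
  replace c2 := c2 card (le_trans (Nat.card_le_card_of_surjective (fun c : K4 =>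
    (⟨κ (xZ c), zV c, mem_centralizer_singleton_iff.2 (ct _).symm⟩ : (fxW Φ ⊓ centralizer {t} : Subgroup G))) fun y => by
      obtain ⟨c, e⟩ := W0 y y.2.1 (mem_centralizer_singleton_iff.1 y.2.2)
      exact ⟨c, Subtype.ext e.symm⟩) (by rw [Nat.card_eq_fintype_card]; rfl))
  set X := Q ⊓ centralizer {t} with hX
  have tX : t ∉ X := fun h => big 1 (by simpa using h.1)
  have fm : ∀ y ∈ X, ∃ u, y = κ u ∨ y = κ u * t := fun y hy =>
    A.cV y (fx_leS mem C D nS hy) fun c => D.cW hy.1 (zV c)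
  have m1 : ∀ a b, κ a * t * κ b = κ (a * b) * t := fun a b => by rw [mul_assoc, (ct b).eq, map_mul, mul_assoc]
  let X1 : Subgroup U6 :=
    { carrier := {u | κ u ∈ X ∨ κ u * t ∈ X}
      one_mem' := .inl (map_one κ ▸ one_mem _)
      mul_mem' := fun {a b} ha hb => by
        rcases ha with ha | ha <;> rcases hb with hb | hb
        · exact .inl (map_mul κ a b ▸ mul_mem ha hb)
        · exact .inr (by rw [map_mul, mul_assoc]; exact mul_mem ha hb)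
        · exact .inr (m1 a b ▸ mul_mem ha hb)
        · exact .inl (by have := mul_mem ha hb; rwa [← mul_assoc, m1, mul_assoc, C.tt, mul_one] at this)
      inv_mem' := fun {a} ha => ha.imp (fun h => map_inv κ a ▸ inv_mem h) fun h => by
        have := inv_mem h
        rwa [mul_inv_rev, inv_eq_of_mul_eq_one_right C.tt, ← map_inv, (ct _).eq] at this }
  have c3 : Nat.card X ≤ Nat.card X1 := by
    choose a ha using fm
    refine Nat.card_le_card_of_injective (fun y : X => (⟨a y y.2, (ha y y.2).elim (fun e => .inl (e ▸ y.2)) fun e => .inr (e ▸ y.2)⟩ : X1)) fun y z e => ?_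
    have e' : a y y.2 = a z z.2 := congrArg Subtype.val e
    rcases ha y y.2 with h | h <;> rcases ha z z.2 with k | k <;> rw [← e'] at k
    · exact Subtype.ext (h.trans k.symm)
    · exact absurd ((mul_mem_cancel_left y.2).1 (by rw [h, ← k]; exact z.2)) tX
    · exact absurd ((mul_mem_cancel_left z.2).1 (by rw [k, ← h]; exact y.2)) tX
    · exact Subtype.ext (h.trans k.symm)
  have lf : ∀ a ∈ X1, ∃ τ, κ a * τ ∈ X ∧ Commute τ t ∧ ∀ u, Commute τ (κ u) := fun a ha =>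
    ha.elim (fun h => ⟨1, by simpa using h, by simp, by simp⟩) fun h => ⟨t, h, rfl, ct⟩
  have f10 := uf.f10 X1 (c2.trans c3) fun a ha b hb => by
    rcases hb with hb | hb
    · obtain ⟨τ, h1, -, h2⟩ := lf a ha
      obtain ⟨c, e⟩ := W0 _ (fx_memW.2 (D.cm _ h1.1 _ hb.1)) (mem_centralizer_singleton_iff.1
        (mul_mem (mul_mem (mul_mem h1.2 hb.2) (inv_mem h1.2)) (inv_mem hb.2)))
      refine ⟨c, inj ?_⟩
      rw [← e, mul_assoc (κ a) τ, (h2 b).eq]; simp only [map_mul, map_inv]; group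
    · obtain ⟨τ, h1, h3, h2⟩ := lf a ha
      obtain ⟨c, e⟩ := W0 _ (fx_memW.2 (D.cm _ h1.1 _ hb.1)) (mem_centralizer_singleton_iff.1
        (mul_mem (mul_mem (mul_mem h1.2 hb.2) (inv_mem h1.2)) (inv_mem hb.2)))
      refine ⟨c, inj ?_⟩
      rw [← e, mul_assoc (κ a) τ, ((h2 b).mul_right h3).eq]
      simp only [map_mul, map_inv, mul_inv_rev, mul_assoc, mul_inv_cancel_left, ← (ct a).inv_inv.eq,
        ← mul_assoc (κ a)⁻¹ t⁻¹]
  have q1 : ∀ u : U6, u.s = 0 → κ u ∈ X := uf.gen (X.comap κ) fun s r => ((f10 _).2 (by simp [U6.mul_def, U6.inv_def])).resolve_right fun h => by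
    obtain ⟨z, hz⟩ := tB r
    refine big (κ (xa s) * z) ?_
    rw [show κ (xa s) * z * t * (κ (xa s) * z)⁻¹ = κ (xa s) * (z * t * z⁻¹) * (κ (xa s))⁻¹ by group, hz, (ct _).eq,
      mul_assoc, mul_assoc, (ct _).inv_right.eq, ← mul_assoc, ← mul_assoc, ← map_inv, ← map_mul, ← map_mul]
    exact h.1
  refine ⟨zV, fun y => ⟨fun ⟨h1, h2⟩ => ?_, ?_⟩⟩
  · have hy : y ∈ X := ⟨h1, mem_centralizer_singleton_iff.2 h2⟩
    obtain ⟨u, rfl | rfl⟩ := fm y hy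
    · exact ⟨u, (f10 u).1 (.inl hy), rfl⟩
    · exact absurd ((mul_mem_cancel_left (q1 u ((f10 u).1 (.inr hy)))).1 hy) tX
  · rintro ⟨u, h, rfl⟩
    exact ⟨(q1 u h).1, (ct u).symm⟩

end Core

end CL.G2R
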