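/-
Project G2R: `Q` is the only conjugate of `Q` normalized by `S`.
-/
import Cfsg.Agent.G2R.FXa

set_option autoImplicit false
set_option linter.unusedSectionVars false

universe u

namespace CL.G2R
open Subgroup CL.Grp CL.L34
open scoped commutatorElement

variable {G : Type u} [Group G] {L S Q Q' : Subgroup G} {κ : U6 →* G} {t x g y q n h : G} {φ : G → G} {ι : Heis F4 →* G}
  {ν : F4} {Φ Φ' : Heis (R16 ν) →* G}

theorem fx_mem : y ∈ Q.map (MulAut.conj g).toMonoidHom ↔ g⁻¹ * y * g ∈ Q := by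
  rw [← conj_smul_eq_map, mem_conj_smul_iff]

theorem fx_norm : y ∈ normalizer (Q.map (MulAut.conj g).toMonoidHom : Set G) ↔ g⁻¹ * y * g ∈ normalizer (Q : Set G) := by
  rw [← conj_smul_eq_map, normalizer_conj_smul, mem_conj_smul_iff]

theorem fx_big (big : ∀ g : G, g * t * g⁻¹ ∉ Q) (g k : G) : k * t * k⁻¹ ∉ Q.map (MulAut.conj g).toMonoidHom := fun e =>
  big (g⁻¹ * k) (by simpa [mul_assoc] using fx_mem.1 e)

theorem fxS : FxS.{u} := by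
  intro uf alg G _ _ L S Q κ x n h φ t ι ν Φ M C B D E A g hg
  have jnj : Function.Injective ((MulAut.conj g).toMonoidHom.comp Φ) := (MulAut.conj g).injective.comp B.inj
  have nS : S ≤ normalizer (Q.map (MulAut.conj g).toMonoidHom : Set G) := fun s hs => fx_norm.2 (hg s hs)
  obtain ⟨h1, h2⟩ := fx_core uf alg M.inj M.mem C A (D.conj g) jnj nS (fx_big E.big g) (B.tA C.tt) (B.tB C.tt)
    (by rw [card_map_of_injective (MulAut.conj g).injective]; exact E.card)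
  refine ⟨fun y => ⟨fun ⟨a, b⟩ => fx_W0 alg M.inj M.mem C A (D.conj g) jnj nS (fx_big E.big g) (B.tA C.tt)
    (fx_memW.2 a) b, ?_⟩, fun y => by rw [← h2, fx_mem]⟩
  rintro ⟨c, rfl⟩
  exact ⟨fx_memW.1 (h1 c), C.tK _ (M.mem _)⟩

section Can
variable [Finite G] (M : Md L κ x n h φ) (I : Api L κ x) (C : Lc L S κ t φ) (B : Db L κ t x ι Φ) (D : Qd Φ Q)
  (E : Qe L S κ t Φ Q) (D' : Qd Φ' Q') (tN : t ∈ normalizer (Q' : Set G)) (big : ∀ g : G, g * t * g⁻¹ ∉ Q')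
  (fw : ∀ y ∈ fxW Φ', y * t = t * y → ∃ c, y = κ (xZ c)) (fq : ∀ y, (y ∈ Q' ∧ y * t = t * y) ↔ ∃ u : U6, u.s = 0 ∧ y = κ u)
include M I C B D E D' tN big fw fq

theorem can_W : fxW Φ' ≤ fxW Φ := by
  intro w hw
  have cw : ⁅t, w⁆ ∈ fxW Φ' := mul_mem (D'.nW tN hw) (inv_mem hw)
  obtain ⟨c, hc⟩ := fw _ cw (fx_fix C.tt cw)
  obtain ⟨w0, h0, e0⟩ := B.wact C.tt c
  have c0 : Commute (w0⁻¹ * w) t := mul_inv_eq_iff_eq_mul.1 (by
    rw [show w0⁻¹ * w * t * (w0⁻¹ * w)⁻¹ = w0⁻¹ * (t⁻¹ * (t * w * t * w⁻¹)) * w0 by group]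
    nth_rewrite 3 [← inv_eq_of_mul_eq_one_right C.tt]
    rw [← commutatorElement_def, hc, inv_eq_of_mul_eq_one_right C.tt, ← e0]; group)
  have c1 : ∀ u : U6, u.s = 0 → Commute (w0⁻¹ * w) (κ u) := fun u hu =>
    (Commute.inv_left (D.cW (E.q1 u hu) h0).symm).mul_left (D'.cW ((fq _).2 ⟨u, hu, rfl⟩).1 hw).symm
  obtain ⟨l, hl, hk⟩ := I.inn _ (C.cN _ c0) fun c => c1 _ rfl
  obtain ⟨c', rfl⟩ := I.cQ l hl fun u hu => by
    have := (Commute.symm (hk _ (M.mem u))).mul_left (c1 u hu).inv_left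
    rwa [mul_inv_cancel_right] at this
  have h1 := mul_mem h0 (inv_mem (B.VW c'))
  have e : w = w0 * (κ (xZ c'))⁻¹ * (κ (xZ c') * (w0⁻¹ * w)) := by group
  rcases E.oc _ hk (Commute.mul_left (C.tK _ hl) c0) _ (D.WQ h1) (e ▸ D'.two (D'.WQ hw)) with k | k
  · rwa [e, k, mul_one]
  rw [k] at e
  generalize w0 * (κ (xZ c'))⁻¹ = w1 at h1 e
  have wt : w * t = t * w := by
    have := eq_inv_of_mul_eq_one_left (fx_sq hw)
    nth_rewrite 2 [e] at this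
    rw [mul_inv_rev, inv_eq_of_mul_eq_one_right C.tt, inv_eq_of_mul_eq_one_right (fx_sq h1)] at this
    nth_rewrite 1 [this]
    rw [e, mul_assoc]
  obtain ⟨c3, e3⟩ := fw w hw wt
  obtain ⟨u, rfl⟩ := fx_memW.1 h1
  exact absurd (D.mem ⟨0, 0, u⟩) (by
    obtain ⟨z, hz⟩ := B.tA C.tt 0 c3
    rw [show Φ ⟨0, 0, u⟩ = z * t * z⁻¹ by rw [hz, ← e3, ← wt, e, mul_assoc, C.tt, mul_one]]
    exact E.big z)

theorem can_Q (jnj : Function.Injective Φ') : Q' ≤ Q := by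
  intro q' hq
  have eW : fxW Φ' = fxW Φ := eq_of_le_of_card_ge (can_W M I C B D E D' tN big fw fq) (by
    rw [fx_cardW jnj, fx_cardW B.inj])
  rw [eW] at fw
  have cW' : ∀ q ∈ Q', ∀ w ∈ fxW Φ, Commute q w := fun q hq w hw => D'.cW hq (eW ▸ hw)
  have ti := inv_eq_of_mul_eq_one_right C.tt
  have dQ : ⁅t, q'⁆ ∈ Q' := mul_mem ((mem_normalizer_iff.1 tN q').1 hq) (inv_mem hq)
  have d1 := fx_inv C.tt q'
  have d2 : q' * t * q'⁻¹ = t * ⁅t, q'⁆ := by rw [commutatorElement_def, ti, ← mul_assoc, ← mul_assoc, ← mul_assoc, C.tt, one_mul]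
  generalize ⁅t, q'⁆ = d at dQ d1 d2
  have dd : d * d ∈ fxW Φ := eW ▸ fx_memW.2 (D'.sq d dQ)
  obtain ⟨c, hc⟩ := fw _ dd (mul_inv_eq_iff_eq_mul.1 (by
    rw [← conj_mul, d1, ← mul_inv_rev, inv_eq_of_mul_eq_one_right (fx_sq dd)])).symm
  obtain ⟨w1, h1, e1⟩ := B.wact C.tt c
  obtain ⟨u, hu, e2⟩ := (fq (d * w1)).1 ⟨mul_mem dQ (D'.WQ (eW ▸ h1)), (mul_inv_eq_iff_eq_mul.1 (by
    rw [← conj_mul, d1, show t * w1 * t⁻¹ = t⁻¹ * (w1 * t * w1⁻¹) * w1 by rw [ti]; group, e1, ← hc]; group)).symm⟩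
  obtain ⟨q, qQ, e, e3⟩ := E.tau u hu
  have h3 := mul_mem (inv_mem (fx_w (Φ := Φ) e)) (inv_mem h1)
  have e4 : q⁻¹ * q' * t * (q⁻¹ * q')⁻¹ = t * ((Φ ⟨0, 0, e⟩)⁻¹ * w1⁻¹) := by
    rw [show q⁻¹ * q' * t * (q⁻¹ * q')⁻¹ = q⁻¹ * (q' * t * q'⁻¹) * q by group, d2,
      show t * d = q * t * q⁻¹ * ((Φ ⟨0, 0, e⟩)⁻¹ * w1⁻¹) by rw [e3, ← e2]; group, mul_assoc, mul_assoc, ← D.cW qQ h3]
    group
  generalize (Φ ⟨0, 0, e⟩)⁻¹ * w1⁻¹ = w3 at h3 e4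
  obtain ⟨c3, rfl⟩ := fw w3 h3 (by
    have : t * w3 * (t * w3) = 1 := by rw [← e4, conj_mul, C.tt]; group
    have := eq_inv_of_mul_eq_one_left this
    rw [mul_inv_rev, ti, inv_eq_of_mul_eq_one_right (fx_sq h3)] at this
    exact this.symm)
  obtain ⟨w4, h4, e5⟩ := B.wact C.tt c3
  have q0 := mul_mem qQ (D.WQ h4)
  have c0 : Commute ((q * w4)⁻¹ * q') t := mul_inv_eq_iff_eq_mul.1 (by
    rw [show (q * w4)⁻¹ * q' * t * ((q * w4)⁻¹ * q')⁻¹ = w4⁻¹ * (q⁻¹ * q' * t * (q⁻¹ * q')⁻¹) * w4 by group, e4, ← e5]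
    group)
  generalize q * w4 = r at q0 c0
  have c1 : ∀ w ∈ fxW Φ, Commute (r⁻¹ * q') w := fun w hw => Commute.mul_left (D.cW (inv_mem q0) hw) (cW' q' hq w hw)
  obtain ⟨l, hl, hk⟩ := I.inn _ (C.cN _ c0) fun c => c1 _ (B.VW c)
  have e6 : ∀ u, l⁻¹ * κ u * l⁻¹⁻¹ = r⁻¹ * q' * κ u * (r⁻¹ * q')⁻¹ := fun u => by
    rw [show r⁻¹ * q' * κ u * (r⁻¹ * q')⁻¹ = l⁻¹ * (l * (r⁻¹ * q') * κ u * (l * (r⁻¹ * q'))⁻¹) * l by group,
      ← hk _ (M.mem u)]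
    group
  obtain ⟨u0, h0, e7⟩ := I.cQV l⁻¹ (inv_mem hl) (mul_inv_eq_iff_eq_mul.1 (by
    rw [e6, (c1 _ (B.VW 1)).mul_inv_cancel])) fun u hu => by
      have a1 : q' * κ u * q'⁻¹ * (κ u)⁻¹ ∈ fxW Φ := eW ▸ fx_memW.2 (D'.cm _ hq _ ((fq _).2 ⟨u, hu, rfl⟩).1)
      have a2 := mul_mem (D.nW (le_normalizer (inv_mem q0)) a1) (fx_memW.2 (D.cm _ (inv_mem q0) _ (E.q1 u hu)))
      have ut : Commute (κ u) t := C.tK _ (M.mem u)
      rw [show r⁻¹ * (q' * κ u * q'⁻¹ * (κ u)⁻¹) * r⁻¹⁻¹ * (r⁻¹ * κ u * r⁻¹⁻¹ * (κ u)⁻¹) =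
        r⁻¹ * q' * κ u * (r⁻¹ * q')⁻¹ * (κ u)⁻¹ by group] at a2
      obtain ⟨c5, e⟩ := fw _ a2 (((c0.mul_left ut).mul_left c0.inv_left).mul_left ut.inv_left)
      exact ⟨c5, by rw [e6, ← fx_zc, map_mul, ← e, inv_mul_cancel_right]⟩
  have q1 := mul_mem q0 (e7 ▸ E.q1 u0 h0 : l⁻¹ ∈ Q)
  have e8 : q' = r * l⁻¹ * (l * (r⁻¹ * q')) := by group
  rcases E.oc _ hk (Commute.mul_left (C.tK _ hl) c0) _ q1 (e8 ▸ D'.two hq) with k | k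
  · rwa [e8, k, mul_one]
  · rw [k, ← inv_mul_eq_iff_eq_mul] at e8
    exact (B.tnW C.tt fun w hw => (e8 ▸ Commute.mul_left (D.cW (inv_mem q1) hw) (cW' q' hq w hw) : Commute t w).symm).elim

end Can

theorem canS : CanS.{u} := by
  intro G _ _ L S Q κ x n h φ t ι ν Φ M I C B D E g hg F
  have := can_Q M I C B D E (D.conj g) (fx_norm.2 hg) (fx_big E.big g) (fun y a b => (F.w y).1 ⟨fx_memW.1 a, b⟩)
    (fun y => by rw [← F.q, fx_mem]) ((MulAut.conj g).injective.comp B.inj)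
  exact mem_normalizer_fintype fun q hq => this (mem_map_of_mem _ hq)

end CL.G2R
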