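/-
Project G2R: the centralizer of `x0` in `G₂(4)` is an image of `SL₃(4)`, up to `⟨x0⟩`.
-/
import Cfsg.Agent.G2R.Mod0
import Cfsg.Agent.Known.PresSLn2

set_option autoImplicit false

namespace CL.G2R
open Subgroup CL.Grp CL.L34 CL.MX.G2 CL.Chev CL.Chev.Cert Cfsg.Lie CL.Known
open scoped commutatorElement

/-- the long roots -/
def m3_ix : Fin 3 → Fin 3 → ℕ := ![![0, 6, 11], ![5, 0, 10], ![0, 1, 0]]

theorem m3_comm (i j k l : Fin 3) (h1 : i ≠ j) (h2 : k ≠ l) (h3 : i ≠ l) (h4 : j ≠ k) (s t : K4) :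
    Commute (xg (m3_ix i j) s : P4) (xg (m3_ix k l) t) := by
  rcases (by decide +kernel : ∀ i j k l : Fin 3, i ≠ j → k ≠ l → i ≠ l → j ≠ k → m3_ix i j = m3_ix k l ∧
    m3_ix k l < chevG2.nroots ∨ m3_ix i j < 12 ∧ m3_ix k l < 12 ∧ m3_ix k l ≠ m3_ix i j ∧
      m3_ix k l ≠ auxG2.ng (m3_ix i j) ∧ auxG2.aTerms (m3_ix i j) (m3_ix k l) = []) i j k l h1 h2 h3 h4 with ⟨e, h⟩ | h
  · rw [e, Commute, SemiconjBy, ← xg_add h, ← xg_add h, add_comm]
  · exact xg_commute h s t

set_option synthInstance.maxSize 2000 in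
theorem m3_rel : StRel fun (i j : Fin 3) (t : K4) => (xg (m3_ix i j) t : P4) := by
  refine ⟨fun i j _ => xg_add (by revert i j; decide +kernel), m3_comm, fun i j k h1 h2 h3 s t => ?_⟩
  have e : (xg (m3_ix i j) s : P4) * xg (m3_ix j k) t = xg (m3_ix j k) t * xg (m3_ix i j) s * xg (m3_ix i k) (s * t) := by
    rcases (by decide +kernel : ∀ i j k : Fin 3, i ≠ j → j ≠ k → i ≠ k → ∃ e ∈ [1, -1], m3_ix j k < 12 ∧ m3_ix i j < 12 ∧
      m3_ix i j ≠ m3_ix j k ∧ m3_ix i j ≠ auxG2.ng (m3_ix j k) ∧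
        auxG2.aTerms (m3_ix j k) (m3_ix i j) = [(m3_ix i k, e, 1, 1)]) i j k h1 h2 h3 with ⟨e, he, h⟩
    rw [xg_comm h]
    simp only [List.mem_cons, List.not_mem_nil, or_false] at he
    rcases he with rfl | rfl <;> simp [CL.SG2.F4.neg_eq, mul_comm]
  rw [commutatorElement_def, e, mul_assoc _ _ (xg _ s)⁻¹, (m3_comm i k i j h3 h1 h1 h3.symm _ _).inv_right.eq,
    ← mul_assoc, mul_inv_cancel_right, ← (m3_comm i k j k h3 h2 h3 h2.symm _ _).eq, mul_inv_cancel_right]

theorem m3_x0 : x0 = (realG2.Sg K4).h (realG2.R.simple i0) (Units.mk0 CL.SG2.F4.w (by decide) : K4ˣ) := by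
  rw [x0, tg, show (CL.SG2.F4.v ^ 3 * 1 ^ 2 : K4) = 1 by decide, StSys.h_one, mul_one]; rfl

theorem m3_index : (centralizer {x0}).index = 4160 := by
  rw [m3_x0, index_cent (orderOf_eq_prime (by decide) (by decide))]; rfl

theorem m3_abs {S G : Type} [Group S] [Group G] [Finite G] (ψ : S →* G) (x : G) (hZ : Nat.card (center S) = 3)
    (hS : Nat.card S = 60480) (hC : Nat.card (centralizer {x}) = 60480) (hx : x ≠ 1)
    (hn : ∀ N : Subgroup S, N.Normal → N ≤ center S ∨ N = ⊤) {a b : S} (hab : ⁅ψ a, ψ b⁆ ≠ 1)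
    (hc : ∀ m ∈ ψ.range, m * x = x * m) : Odd (Nat.card (center ψ.range)) ∧
      Nonempty (ψ.range ⧸ center ψ.range ≃* S ⧸ center S) ∧ ∀ g, g * x = x * g → ∃ m ∈ ψ.range, ∃ k : ℕ, g = m * x ^ k := by
  have hs := ψ.rangeRestrict_surjective
  have := Nat.finite_of_card_ne_zero (hS.trans_ne (by decide))
  have hz : (center ψ.range).comap ψ.rangeRestrict = center _ :=
    le_antisymm ((hn _ inferInstance).resolve_right fun e => hab (commutatorElement_eq_one_iff_mul_comm.2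
      (congrArg Subtype.val (mem_center_iff.1 (e.ge (mem_top b)) (ψ.rangeRestrict a)))))
      fun z h => mem_center_iff.2 fun m => (hs m).elim fun g e => by rw [← e, ← map_mul, ← map_mul, mem_center_iff.1 h]
  have hm := map_comap_eq_self_of_surjective hs (center ψ.range)
  rw [hz] at hm
  refine ⟨Odd.of_dvd_nat (by decide : Odd 3) (hm ▸ hZ ▸ card_map_dvd _ _),
    ⟨(QuotientGroup.quotientKerEquivOfSurjective ((QuotientGroup.mk' _).comp ψ.rangeRestrict)
      ((QuotientGroup.mk'_surjective _).comp hs)).symm.trans (QuotientGroup.quotientMulEquivOfEq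
        (by rw [← MonoidHom.comap_ker, QuotientGroup.ker_mk', hz]))⟩, fun g hg => ?_⟩
  have h1 : ψ.range ⊔ zpowers x ≤ centralizer {x} := sup_le (fun m h => mem_centralizer_singleton_iff.2 (hc m h))
    (zpowers_le.2 (mem_centralizer_singleton_iff.2 rfl))
  have h3 := ψ.ker.card_mul_index
  rw [index_ker, hS] at h3
  have h4 : ψ.ker ≤ center _ := fun g h =>
    hz.le (mem_comap.2 (by rw [show ψ.rangeRestrict g = 1 from Subtype.ext h]; exact one_mem _))
  have h5 : Nat.card (centralizer {x}) ≤ Nat.card ↥(ψ.range ⊔ zpowers x) := by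
    rcases (Nat.dvd_prime Nat.prime_three).1 (hZ ▸ card_dvd_of_le h4) with e | e <;> rw [e] at h3
    · have := card_le_of_le (le_sup_left : ψ.range ≤ ψ.range ⊔ zpowers x)
      omega
    obtain ⟨k, h5⟩ := card_dvd_of_le (le_sup_left : ψ.range ≤ ψ.range ⊔ zpowers x)
    have h6 := card_dvd_of_le h1
    rw [h5, show Nat.card (centralizer {x}) = Nat.card ψ.range * 3 by omega] at h6
    rcases (Nat.dvd_prime Nat.prime_three).1 (Nat.dvd_of_mul_dvd_mul_left Nat.card_pos h6) with rfl | rfl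
    · have h7 := (eq_of_le_of_card_ge le_sup_left (h5.trans (mul_one _)).le).ge (mem_sup_right (mem_zpowers x))
      obtain ⟨z, h8, h9⟩ := hm.ge (mem_center_iff.2 fun m => Subtype.ext (hc m m.2) : (⟨x, h7⟩ : ψ.range) ∈ center _)
      exact absurd ((congrArg Subtype.val h9).symm.trans ((eq_of_le_of_card_ge h4 (hZ.trans e.symm).le).ge h8)) hx
    · omega
  have h6 : g ∈ ((ψ.range ⊔ zpowers x : Subgroup G) : Set G) :=
    (eq_of_le_of_card_ge h1 h5).ge (mem_centralizer_singleton_iff.2 hg)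
  rw [coe_mul_of_right_le_normalizer_left _ _ (zpowers_le.2 (centralizer_le_normalizer _ fun m h => hc m h))] at h6
  obtain ⟨m, h7, _, h8, rfl⟩ := h6
  obtain ⟨k, rfl⟩ := mem_powers_iff_mem_zpowers.2 h8
  exact ⟨m, h7, k, rfl⟩

theorem m3S : M3S := by
  obtain ⟨ψ, hψ⟩ := stLift_fin (K := K4) (le_refl 3) P4 _ m3_rel
  have hp : Group.IsPerfect (Matrix.SpecialLinearGroup (Fin 3) K4) := CL.SLn.isPerfect_SL (.inl (by simp))
  have hG : Nat.card P4 = 251596800 := Cfsg.Agent.S1059.result (q := 4) rfl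
  have := Nat.finite_of_card_ne_zero (hG.trans_ne (by decide))
  have hc : ∀ m ∈ ψ.range, m * x0 = x0 * m := by
    rintro _ ⟨g, rfl⟩
    induction g using elt_induction with
    | h1 => simp
    | h2 i j h t =>
      obtain ⟨h1, h2⟩ := (by decide +kernel : ∀ i j : Fin 3, m3_ix i j < chevG2.nroots ∧
        CL.SG2.F4.w ^ auxG2.ca i0 (m3_ix i j) = 1) i j
      rw [hψ i j h, m3_x0, h_xg i0 h1 (Units.ne_zero _), Units.val_mk0, h2, one_mul]
    | h3 a b ha hb => rw [map_mul, mul_assoc, hb, ← mul_assoc, ha, mul_assoc]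
  have h2 := (centralizer {x0}).card_mul_index
  rw [m3_index, hG] at h2
  have h2' := Nat.eq_of_mul_eq_mul_right (by decide) (h2.trans (by decide : _ = 60480 * 4160))
  obtain ⟨h3, h4, h5⟩ := m3_abs ψ x0 (CL.SLn.card_center_SL.trans (by decide)) CL.SLn.card_SL_three h2'
    (fun e => by
      have := m3_index
      rw [e, centralizer_eq_top_iff_subset.2 (Set.singleton_subset_iff.2 (one_mem (center P4))), index_top] at this
      omega)
    (fun N _ => CL.SLn.normal_le_center_or_eq_top (.inl (by simp)) N) (a := elt 0 1 1) (b := elt 1 2 1) (fun e => by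
      rw [hψ 0 1 (by decide), hψ 1 2 (by decide), m3_rel.mul 0 1 2 (by decide) (by decide) (by decide),
        ← xg_zero (k := 11) (by decide)] at e
      exact absurd ((realG2.full K4).faithful.uFaithful.x_injective ⟨11, by decide⟩
        ((xg_eq _ _).trans (e.trans (xg_eq ⟨11, _⟩ _).symm))) (by decide)) hc
  refine ⟨ψ.range, .range ψ, h3, h4, hc, h5, fun r p c => ?_⟩
  rw [κ0_apply, xg_zero (by decide), xg_zero (k := 8) (by decide), xg_zero (k := 9) (by decide), one_mul, mul_one, mul_one]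
  exact mul_mem (mul_mem ⟨_, hψ 0 1 (by decide) r⟩ ⟨_, hψ 1 2 (by decide) p⟩) ⟨_, hψ 0 2 (by decide) c⟩

end CL.G2R
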