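/-
Project G2R: the class two group `Q` and four-groups of semilinear maps.
-/
import Cfsg.Agent.G2R.Defs
import Cfsg.Agent.L34.E0

set_option autoImplicit false

universe u

namespace CL.G2R
open Subgroup CL.Grp CL.L34

section QD
variable {G : Type u} [Group G] {L : Subgroup G} {κ : U6 →* G} {ν : F4} {Φ : Heis (R16 ν) →* G}
  {q q' y y' g : G} {u u' : R16 ν}

/-- the commutator of `q` and `y` is `w u` -/
def qdB (Φ : Heis (R16 ν) →* G) (q y : G) (u : R16 ν) : Prop := q * y = y * q * Φ ⟨0, 0, u⟩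

theorem qd_add (u v : R16 ν) : Φ ⟨0, 0, u + v⟩ = Φ ⟨0, 0, u⟩ * Φ ⟨0, 0, v⟩ := by
  rw [← map_mul]; exact congrArg Φ (by simp [Heis.mul_def])

theorem qd_zero : Φ ⟨0, 0, 0⟩ = 1 := map_one Φ

theorem qd_uniq (hΦ : Function.Injective Φ) (h : qdB Φ q y u) (h' : qdB Φ q y u') : u = u' :=
  congrArg Heis.c (hΦ (mul_left_cancel (h.symm.trans h')))

theorem qd_left (hq : ∀ u, q' * Φ ⟨0, 0, u⟩ = Φ ⟨0, 0, u⟩ * q') (h : qdB Φ q y u) (h' : qdB Φ q' y u') :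
    qdB Φ (q * q') y (u + u') := by
  unfold qdB at *
  rw [mul_assoc, h', ← mul_assoc, ← mul_assoc, h, mul_assoc (y * q), ← hq, qd_add]
  simp only [mul_assoc]

theorem qd_right (hy : ∀ u, y' * Φ ⟨0, 0, u⟩ = Φ ⟨0, 0, u⟩ * y') (h : qdB Φ q y u) (h' : qdB Φ q y' u') :
    qdB Φ q (y * y') (u' + u) := by
  unfold qdB at *
  rw [← mul_assoc, h, mul_assoc (y * q), ← hy, ← mul_assoc, mul_assoc y, h', qd_add]
  simp only [mul_assoc]

theorem qd_one_left (y : G) : qdB Φ 1 y 0 := by rw [qdB, qd_zero, one_mul, mul_one, mul_one]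
theorem qd_one_right (q : G) : qdB Φ q 1 0 := by rw [qdB, qd_zero, one_mul, mul_one]

theorem qd_conj (h : qdB Φ q y u) (e : g * Φ ⟨0, 0, u⟩ * g⁻¹ = Φ ⟨0, 0, u'⟩) :
    qdB Φ (g * q * g⁻¹) (g * y * g⁻¹) u' := by
  unfold qdB at *
  rw [← e, conj_mul, conj_mul, conj_mul, h]

theorem qd_conj' (h : qdB Φ q y u) (h' : qdB Φ (g * q * g⁻¹) (g * y * g⁻¹) u') :
    g * Φ ⟨0, 0, u⟩ * g⁻¹ = Φ ⟨0, 0, u'⟩ := by
  unfold qdB at *
  rw [conj_mul, conj_mul, h, ← conj_mul] at h'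
  exact mul_left_cancel h'

theorem qd_ab (a b : R16 ν) : qdB Φ (Φ ⟨a, 0, 0⟩) (Φ ⟨0, b, 0⟩) (a * b) := by
  rw [qdB, ← map_mul, ← map_mul, ← map_mul]; exact congrArg Φ (by simp [Heis.mul_def])

theorem qd_gen (hg : g ∈ L) (hz : g * κ (xZ 1) = κ (xZ 1) * g) (r u : R16 ν) :
    g * Φ ⟨r, 0, u⟩ * g⁻¹ ∈ QQ L κ Φ := subset_closure ⟨g, hg, hz, r, u, rfl⟩

theorem qd_sq (g : G) (r u : R16 ν) : g * Φ ⟨r, 0, u⟩ * g⁻¹ * (g * Φ ⟨r, 0, u⟩ * g⁻¹) = 1 := by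
  rw [conj_mul, ← map_mul, show (⟨r, 0, u⟩ * ⟨r, 0, u⟩ : Heis (R16 ν)) = 1 by
    simp [Heis.mul_def, Heis.one_def, add_self_R16], map_one, mul_one, mul_inv_cancel]

theorem qd_ind {P : G → Prop} (one : P 1)
    (gen : ∀ g ∈ L, g * κ (xZ 1) = κ (xZ 1) * g → ∀ r u, P (g * Φ ⟨r, 0, u⟩ * g⁻¹))
    (mul : ∀ a ∈ QQ L κ Φ, ∀ b ∈ QQ L κ Φ, P a → P b → P (a * b)) : ∀ q ∈ QQ L κ Φ, P q := fun q hq => by
  refine closure_induction'' (p := fun q _ => P q) ?_ ?_ one (fun a b ha hb => mul a ha b hb) hq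
  · rintro _ ⟨g, hg, hz, r, u, rfl⟩
    exact gen g hg hz r u
  · rintro _ ⟨g, hg, hz, r, u, rfl⟩
    rw [inv_eq_of_mul_eq_one_left (qd_sq g r u)]
    exact gen g hg hz r u

theorem qd_cen (H : Cm L κ Φ) : ∀ q ∈ QQ L κ Φ, ∀ u, q * Φ ⟨0, 0, u⟩ = Φ ⟨0, 0, u⟩ * q :=
  qd_ind (fun _ => (Commute.one_left _).eq) (fun g hg hz r c u => by
    have h1 : Commute g (Φ ⟨0, 0, u⟩) := H.cw g hg hz u
    have h2 : Commute (Φ ⟨r, 0, c⟩) (Φ ⟨0, 0, u⟩) := by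
      rw [Commute, SemiconjBy, ← map_mul, ← map_mul]; exact congrArg Φ (by simp [Heis.mul_def, add_comm])
    exact ((h1.mul_left h2).mul_left h1.inv_left).eq)
    fun a _ b _ ha hb u => (Commute.mul_left (ha u) (hb u)).eq

theorem qd_form (H : Cm L κ Φ) {g g' : G} (hg : g ∈ L) (hz : g * κ (xZ 1) = κ (xZ 1) * g) (hg' : g' ∈ L)
    (hz' : g' * κ (xZ 1) = κ (xZ 1) * g') : ∃ e, ∀ r u s u',
      qdB Φ (g * Φ ⟨r, 0, u⟩ * g⁻¹) (g' * Φ ⟨s, 0, u'⟩ * g'⁻¹) (e * r * s) := by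
  obtain ⟨e, he⟩ := H.cm (g⁻¹ * g') (mul_mem (inv_mem hg) hg') ((Commute.inv_left hz).mul_left hz').eq
  refine ⟨e, fun r u s u' => ?_⟩
  have h := qd_conj (g := g) (he r u s u') (by rw [H.cw g hg hz, mul_inv_cancel_right])
  rwa [show g * (g⁻¹ * g' * Φ ⟨s, 0, u'⟩ * (g⁻¹ * g')⁻¹) * g⁻¹ = g' * Φ ⟨s, 0, u'⟩ * g'⁻¹ by group] at h

theorem qd_ex (H : Cm L κ Φ) : ∀ q ∈ QQ L κ Φ, ∀ y ∈ QQ L κ Φ, ∃ u, qdB Φ q y u :=
  qd_ind (fun y _ => ⟨0, qd_one_left y⟩) (fun g hg hz r c => qd_ind ⟨0, qd_one_right _⟩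
    (fun g' hg' hz' s c' => (qd_form H hg hz hg' hz').elim fun e he => ⟨_, he r c s c'⟩)
    fun a _ b hb ⟨_, h⟩ ⟨_, h'⟩ => ⟨_, qd_right (qd_cen H b hb) h h'⟩)
    fun a _ b hb ha' hb' y hy => (ha' y hy).elim fun _ h => (hb' y hy).elim fun _ h' =>
      ⟨_, qd_left (qd_cen H b hb) h h'⟩

theorem qd_mem (H : Cm L κ Φ) (p : Heis (R16 ν)) : Φ p ∈ QQ L κ Φ := by
  obtain ⟨g, hg, hz, e, he⟩ := H.yb
  obtain ⟨u, hu⟩ := he p.b
  have h := mul_mem (qd_gen (Φ := Φ) hg hz (e * p.b) u)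
    (qd_gen (κ := κ) (Φ := Φ) L.one_mem (Commute.one_left _).eq p.a p.c)
  rwa [← hu, one_mul, inv_one, mul_one, ← map_mul,
    show (⟨0, p.b, 0⟩ * ⟨p.a, 0, p.c⟩ : Heis (R16 ν)) = p by simp [Heis.mul_def]] at h

theorem qd_R1 (hΦ : Function.Injective Φ) (H : Cm L κ Φ) (r : R16 ν) : ∀ q ∈ QQ L κ Φ, ∃ q' ∈ QQ L κ Φ,
    ∀ y ∈ QQ L κ Φ, ∀ u, qdB Φ q y u → qdB Φ q' y (r * u) := by
  refine qd_ind ⟨1, one_mem _, fun y _ u h => ?_⟩ (fun g hg hz a c => ⟨_, qd_gen hg hz (r * a) 0, ?_⟩) ?_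
  · rw [qd_uniq hΦ h (qd_one_left y), mul_zero]; exact qd_one_left y
  · refine qd_ind (fun u h => ?_) (fun g' hg' hz' s c' u h => ?_) fun y hy y' hy' h1 h2 u h => ?_
    · rw [qd_uniq hΦ h (qd_one_right _), mul_zero]; exact qd_one_right _
    · obtain ⟨e, he⟩ := qd_form H hg hz hg' hz'
      rw [qd_uniq hΦ h (he a c s c'), show r * (e * a * s) = e * (r * a) * s by ring]
      exact he _ _ _ _
    · obtain ⟨v, hv⟩ := qd_ex H _ (qd_gen hg hz a c) y hy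
      obtain ⟨v', hv'⟩ := qd_ex H _ (qd_gen hg hz a c) y' hy'
      rw [qd_uniq hΦ h (qd_right (qd_cen H y' hy') hv hv'), mul_add]
      exact qd_right (qd_cen H y' hy') (h1 v hv) (h2 v' hv')
  · rintro a ha b hb ⟨a', ha', h1⟩ ⟨b', hb', h2⟩
    refine ⟨_, mul_mem ha' hb', fun y hy u h => ?_⟩
    obtain ⟨v, hv⟩ := qd_ex H a ha y hy
    obtain ⟨v', hv'⟩ := qd_ex H b hb y hy
    rw [qd_uniq hΦ h (qd_left (qd_cen H b hb) hv hv'), mul_add]
    exact qd_left (qd_cen H b' hb') (h1 y hy v hv) (h2 y hy v' hv')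

theorem qd_R2 (H : Cm L κ Φ) : ∀ q ∈ QQ L κ Φ, ∃ e, ∀ b, qdB Φ q (Φ ⟨0, b, 0⟩) (e * b) := by
  obtain ⟨g', hg', hz', e', he'⟩ := H.yb
  refine qd_ind ⟨0, fun b => by rw [zero_mul]; exact qd_one_left _⟩ (fun g hg hz a c => ?_) ?_
  · obtain ⟨e, he⟩ := qd_form H hg hz hg' hz'
    refine ⟨e * a * e', fun b => ?_⟩
    obtain ⟨u, hu⟩ := he' b
    rw [hu, mul_assoc (e * a)]
    exact he _ _ _ _
  · rintro a - b hb ⟨e, h1⟩ ⟨e', h2⟩
    exact ⟨e + e', fun c => by rw [add_mul]; exact qd_left (qd_cen H b hb) (h1 c) (h2 c)⟩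

end QD

theorem qdS : QdS.{u} := by
  intro G _ L κ ν Φ hΦ H
  have cj : ∀ g ∈ normalizer (QQ L κ Φ : Set G), ∀ q ∈ QQ L κ Φ, g * q * g⁻¹ ∈ QQ L κ Φ :=
    fun g hg q hq => (mem_normalizer_iff.1 hg q).1 hq
  refine ⟨qd_mem H, qd_cen H, fun q hq y hy => ?_, qd_ind ⟨0, by rw [qd_zero, one_mul]⟩
    (fun g _ _ r u => ⟨0, by rw [qd_zero, qd_sq]⟩) ?_, fun g hg u => ?_, fun g hg r => ?_⟩
  · obtain ⟨u, hu⟩ := qd_ex H q hq y hy
    exact ⟨u, by rw [hu, qd_cen H _ (mul_mem hy hq)]; group⟩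
  · rintro a ha b hb ⟨u, hu⟩ ⟨v, hv⟩
    obtain ⟨c, hc⟩ := qd_ex H b hb a ha
    refine ⟨u + v + c, ?_⟩
    rw [qd_add, qd_add, ← hu, ← hv, mul_assoc a, ← mul_assoc b, hc, mul_assoc (a * b), ← qd_cen H b hb]
    simp only [mul_assoc]
  · obtain ⟨v, hv⟩ := qd_ex H _ (cj g hg _ (qd_mem H ⟨u, 0, 0⟩)) _ (cj g hg _ (qd_mem H ⟨0, 1, 0⟩))
    exact ⟨v, by simpa only [mul_one] using qd_conj' (qd_ab u 1) hv⟩
  · obtain ⟨q', hq', h1⟩ := qd_R1 hΦ H r _ (cj _ (inv_mem hg) _ (qd_mem H ⟨1, 0, 0⟩))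
    obtain ⟨r', h2⟩ := qd_R2 H _ (cj g hg q' hq')
    refine ⟨r', fun u u' e => qd_conj' (h1 _ (cj _ (inv_mem hg) _ (qd_mem H ⟨0, u', 0⟩)) u
      (qd_conj (qd_ab 1 u') (by rw [one_mul, ← e]; group))) ?_⟩
    rw [show g * (g⁻¹ * Φ ⟨0, u', 0⟩ * g⁻¹⁻¹) * g⁻¹ = Φ ⟨0, u', 0⟩ by group]
    exact h2 u'

section Alg
variable {R : Type} [CommRing R] {f f' : R →+ R} {ε : R}

theorem alg_sig (h : Semi f) (hf : ∀ u, f (f u) = u) :
    ∃ σ : RingAut R, σ * σ = 1 ∧ ∀ r u, f (r * u) = σ r * f u := by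
  have key : ∀ r u, f (r * u) = f (r * f 1) * f u := fun r u => by
    obtain ⟨r', e⟩ := h r
    rw [e, e, hf, mul_one]
  have inv : ∀ r, f (f (r * f 1) * f 1) = r := fun r => by rw [← key, mul_one, hf]
  exact ⟨⟨⟨fun r => f (r * f 1), fun r => f (r * f 1), inv, inv⟩, fun r s => by
    simp only; rw [mul_assoc, key], fun r s => by simp only; rw [add_mul, map_add]⟩, RingEquiv.ext inv, key⟩

theorem alg_id (h2 : ∀ c : R, c * c = 1 → c = 1) (hf : ∀ u, f (f u) = u) (h : ∀ r u, f (r * u) = r * f u)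
    (u : R) : f u = u := by
  have e := h (f 1) 1
  rw [mul_one, hf] at e
  rw [← mul_one u, h, h2 _ e.symm]

theorem alg_cyc {C : Type*} [Group C] [IsCyclic C] {a b : C} (ha : a * a = 1) (hb : b * b = 1) :
    a = 1 ∨ b = 1 ∨ a * b = 1 := by
  obtain ⟨g, hg⟩ := IsCyclic.exists_generator (α := C)
  obtain ⟨i, rfl⟩ := mem_zpowers_iff.1 (hg a)
  obtain ⟨j, rfl⟩ := mem_zpowers_iff.1 (hg b)
  simp only [← zpow_add, ← orderOf_dvd_iff_zpow_eq_one] at ha hb ⊢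
  obtain ⟨k, hk⟩ := ha
  obtain ⟨l, hl⟩ := hb
  rcases Int.even_or_odd' k with ⟨k, rfl | rfl⟩
  · exact .inl ⟨k, by linarith⟩
  rcases Int.even_or_odd' l with ⟨l, rfl | rfl⟩
  · exact .inr (.inl ⟨l, by linarith⟩)
  · exact .inr (.inr ⟨k + l + 1, by linarith⟩)

theorem alg_five {p : R → Prop} (h4 : Nat.card {u // p u} = 4) (hf : ∀ u, f (f u) = u) (hf' : ∀ u, f' (f' u) = u)
    (hc : ∀ u, f (f' u) = f' (f u)) (h0 : p 0) (h1 : ∀ u, p u → p (f u)) (h2 : ∀ u, p u → p (f' u)) {e : R} (he : p e)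
    (n1 : f e ≠ e) (n2 : f' e ≠ e) (n3 : f (f' e) ≠ e) : False := by
  classical
  have : Finite {u // p u} := Nat.finite_of_card_ne_zero (by omega)
  have := Fintype.ofFinite {u // p u}
  have i1 := Function.LeftInverse.injective hf
  have i2 := Function.LeftInverse.injective hf'
  have a0 : 0 ≠ e := fun h => n1 (by rw [← h, map_zero])
  have a1 : 0 ≠ f e := fun h => a0 (i1 ((map_zero f).trans h))
  have a2 : 0 ≠ f' e := fun h => a0 (i2 ((map_zero f').trans h))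
  have a3 : 0 ≠ f (f' e) := fun h => a2 (i1 ((map_zero f).trans h))
  have a4 : f e ≠ f' e := fun h => n3 (by rw [← h, hf])
  have a5 : f e ≠ f (f' e) := fun h => n2 (i1 h).symm
  have a6 : f' e ≠ f (f' e) := fun h => n1 (i2 (h.trans (hc e))).symm
  have := Finset.card_le_univ ({⟨0, h0⟩, ⟨e, he⟩, ⟨_, h1 e he⟩, ⟨_, h2 e he⟩, ⟨_, h1 _ (h2 e he)⟩} : Finset {u // p u})
  rw [← Nat.card_eq_fintype_card, h4] at this
  simp [Finset.card_insert_of_notMem, a0, a1, a2, a3, a4, a5, a6, n1.symm, n2.symm, n3.symm] at this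

end Alg

theorem alg_kill {ν : F4} {ε : R16 ν} (S : Spl ε) {f f' : R16 ν →+ R16 ν} {V : AddSubgroup (R16 ν)}
    (h4 : Nat.card V = 4) (h : ∀ u, f (ε * u) = (1 + ε) * f u) (h' : ∀ u, f' (ε * u) = ε * f' u)
    (hV : ∀ v ∈ V, f v = v) (hV' : ∀ v ∈ V, f' v = v) (u : R16 ν) : f' u = u := by
  have t := two_R16 ν
  have i := S.idem
  have b1 : Function.Bijective fun v : V => (⟨ε * v, by rw [← mul_assoc, i]⟩ : {u // ε * u = u}) :=
    (Nat.bijective_iff_injective_and_card _).2 ⟨fun v w e => Subtype.ext (by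
      have e1 : ε * (v - w : R16 ν) = 0 := by rw [mul_sub, show ε * v = ε * w from congrArg Subtype.val e, sub_self]
      have e2 := h (v - w)
      rw [e1, map_zero, hV _ (sub_mem v.2 w.2)] at e2
      linear_combination -e2 - e1), h4.trans S.c1.symm⟩
  have b2 : Function.Bijective fun v : V =>
      (⟨(1 + ε) * v, by linear_combination v * i + ε * v * t⟩ : {u // ε * u = 0}) :=
    (Nat.bijective_iff_injective_and_card _).2 ⟨fun v w e => Subtype.ext (by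
      have e0 : (1 + ε) * (v : R16 ν) = (1 + ε) * w := congrArg Subtype.val e
      have e1 : ε * (v - w : R16 ν) = v - w := by linear_combination e0 - (v - w : R16 ν) * t
      have e2 := h (v - w)
      rw [e1, hV _ (sub_mem v.2 w.2)] at e2
      linear_combination e2 + e0), h4.trans S.c2.symm⟩
  obtain ⟨v, hv⟩ := b1.2 ⟨ε * u, by rw [← mul_assoc, i]⟩
  obtain ⟨w, hw⟩ := b2.2 ⟨(1 + ε) * u, by linear_combination u * i + ε * u * t⟩
  have e1 : ε * (v : R16 ν) = ε * u := congrArg Subtype.val hv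
  have e2 : (1 + ε) * (w : R16 ν) = (1 + ε) * u := congrArg Subtype.val hw
  have e3 : u = ε * v + (w + ε * w) := by linear_combination -e1 - e2 - ε * u * t
  rw [e3, map_add, map_add, h', h', hV' _ v.2, hV' _ w.2]

theorem algS : AlgS := by
  intro ν f0 f1 f2 V s0 s1 s2 hi h4 hV hm e he
  by_contra hn
  obtain ⟨n1, n2, n3⟩ := hm e he hn
  obtain ⟨σ0, -, k0⟩ := alg_sig s0 fun u => (hi u).1
  obtain ⟨σ1, q1, k1⟩ := alg_sig s1 fun u => (hi u).2.1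
  obtain ⟨σ2, q2, k2⟩ := alg_sig s2 fun u => (hi u).2.2.1
  have t := two_R16 ν
  obtain ⟨hc, ⟨-, _⟩ | ⟨ε, S⟩⟩ := dichS ν
  · rcases alg_cyc q1 q2 with h | h | h
    · exact n1 (alg_id hc (fun u => (hi u).2.1) (fun r u => by rw [k1, h]; rfl) e)
    · exact n2 (alg_id hc (fun u => (hi u).2.2.1) (fun r u => by rw [k2, h]; rfl) e)
    · exact n3 (alg_id (f := f1.comp f2) hc (fun u => by
        simp only [AddMonoidHom.comp_apply]; rw [← (hi _).2.2.2, (hi _).2.1, (hi _).2.2.1])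
        (fun r u => by
          simp only [AddMonoidHom.comp_apply]; rw [k2, k1, show σ1 (σ2 r) = r from RingEquiv.congr_fun h r]) e)
  have ty : ∀ (f : R16 ν →+ R16 ν) (σ : RingAut (R16 ν)), (∀ r u, f (r * u) = σ r * f u) →
      (∀ u, f (ε * u) = ε * f u) ∨ ∀ u, f (ε * u) = (1 + ε) * f u := fun f σ k =>
    (S.aut σ).imp (fun h u => by rw [k, h]) fun h u => by rw [k, h]
  have V0 := fun v hv => (hV v hv).1
  have V1 := fun v hv => (hV v hv).2.1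
  have V2 := fun v hv => (hV v hv).2.2
  rcases ty f1 σ1 k1 with p1 | p1 <;> rcases ty f2 σ2 k2 with p2 | p2
  · rcases ty f0 σ0 k0 with p0 | p0
    swap
    · exact n1 (alg_kill S h4 p0 p1 V0 V1 e)
    by_cases h : ε * e ∈ V
    · have h1 : e + ε * e ∉ V := fun h1 => hn (by simpa using sub_mem h1 h)
      obtain ⟨m1, m2, m3⟩ := hm _ (by rw [map_add, p0, he]) h1
      exact alg_five S.c2 (fun u => (hi u).2.1) (fun u => (hi u).2.2.1) (fun u => (hi u).2.2.2) (mul_zero ε)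
        (fun u hu => by rw [← p1, hu, map_zero]) (fun u hu => by rw [← p2, hu, map_zero])
        (by linear_combination e * S.idem + ε * e * t) m1 m2 m3
    · obtain ⟨m1, m2, m3⟩ := hm _ (by rw [p0, he]) h
      exact alg_five S.c1 (fun u => (hi u).2.1) (fun u => (hi u).2.2.1) (fun u => (hi u).2.2.2) (mul_zero ε)
        (fun u hu => by rw [← p1, hu]) (fun u hu => by rw [← p2, hu]) (by rw [← mul_assoc, S.idem]) m1 m2 m3
  · exact n1 (alg_kill S h4 p2 p1 V2 V1 e)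
  · exact n2 (alg_kill S h4 p1 p2 V1 V2 e)
  · refine n3 (alg_kill (f' := f1.comp f2) S h4 p1 (fun u => ?_) V1
      (fun v hv => by rw [AddMonoidHom.comp_apply, V2 v hv, V1 v hv]) e)
    simp only [AddMonoidHom.comp_apply]
    rw [p2, add_mul, one_mul, map_add, p1]
    linear_combination f1 (f2 u) * t

end CL.G2R
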