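/-
Project G2R: facts on the Sylow subgroup `S` of `C(t)` and the second part of the structure of `Q`.
-/
import Cfsg.Agent.G2R.Defs
import Cfsg.Agent.Even.Amb2

set_option autoImplicit false
set_option linter.unusedSectionVars false
set_option linter.constructorNameAsVariable false

universe u

namespace CL.G2R
open Subgroup CL.Grp CL.L34 CL.Even

theorem sa_zc (u : U6) (c : K4) : u * xZ c = xZ c * u := by simp only [U6.mul_def]; ext1 <;> grind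

theorem sa_V {D : Subgroup U6} (hn : ∀ d ∈ D, ∀ q, q * d * q⁻¹ ∈ D) {c : K4} (h : xC 1 c ∈ D) (r : K4) : xZ r ∈ D := by
  have := mul_mem (hn _ h (xb r)) (inv_mem h)
  rwa [show xb r * xC 1 c * (xb r)⁻¹ * (xC 1 c)⁻¹ = xZ r by
    simp only [U6.mul_def, U6.inv_def]; ext1 <;> grind] at this

theorem sa_A {D : Subgroup U6} (hn : ∀ d ∈ D, ∀ q, q * d * q⁻¹ ∈ D) (hs : ∀ d ∈ D, d * d = 1) {u : U6} (u2 : u * u = 1)
    (hu : ∀ q, q * u * q⁻¹ * u⁻¹ ∈ D) (h : ¬ ∃ p c, u = xC p c) (p c : K4) : xC p c ∈ D := by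
  have k0 : ∀ v w p c : K4, (⟨0, 0, v, w, p, c⟩ : U6) * ⟨0, 0, v, w, p, c⟩ = 1 → ¬ (v = 0 ∧ w = 0) → ∀ p', ∃ a c',
      xa a * ⟨0, 0, v, w, p, c⟩ * (xa a)⁻¹ * (⟨0, 0, v, w, p, c⟩ : U6)⁻¹ = xC p' c' := by decide +kernel
  have k1 : ∀ {u : U6}, u * u = 1 → (∀ q, q * u * q⁻¹ * u⁻¹ ∈ D) → u.s = 0 → u.r = 0 → ¬ (u.v = 0 ∧ u.w = 0) →
      ∀ p, ∃ c, xC p c ∈ D := by
    rintro ⟨s, r, v, w, p, c⟩ h1 h2 rfl rfl h3 p'
    obtain ⟨a, c', e⟩ := k0 v w p c h1 h3 p'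
    exact ⟨c', e ▸ h2 _⟩
  have k2 : ∀ p, ∃ c, xC p c ∈ D := by
    by_cases e1 : u.s = 0
    · by_cases e2 : u.r = 0
      · exact k1 u2 hu e1 e2 fun e => h ⟨u.p, u.c, U6.ext e1 e2 e.1 e.2 rfl rfl⟩
      · have m := hu (xa 1)
        refine k1 (hs _ m) (fun q => mul_mem (hn _ m q) (inv_mem m)) ?_ ?_ fun e => e2 ?_
        · simp only [U6.mul_def, U6.inv_def]; grind
        · simp only [U6.mul_def, U6.inv_def]; grind
        · have := e.1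
          simp only [U6.mul_def, U6.inv_def] at this
          grind
    · intro p
      refine ⟨(xB (p * u.s⁻¹) * u * (xB (p * u.s⁻¹))⁻¹ * u⁻¹).c, ?_⟩
      convert hu (xB (p * u.s⁻¹)) using 1
      simp only [U6.mul_def, U6.inv_def]
      ext1 <;> grind
  obtain ⟨c1, h1⟩ := k2 1
  obtain ⟨c', h2⟩ := k2 p
  have := mul_mem h2 (sa_V hn h1 (c' + c))
  rwa [show xC p c' * xZ (c' + c) = xC p c by simp only [U6.mul_def]; ext1 <;> grind] at this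

section
variable {G : Type u} [Group G] [Finite G] {L S : Subgroup G} {κ : U6 →* G} {x n h t : G} {φ : G → G}

theorem Lc.sa_ct (l : Lc L S κ t φ) {s : G} (hs : s ∈ S) : s * t = t * s :=
  mem_centralizer_singleton_iff.1 (l.syl.le hs)

theorem Lc.sa_K (l : Lc L S κ t φ) (two : ∀ k ∈ centralizer (L : Set G), k * t = t * k → Two k → k = 1 ∨ k = t) {s : G}
    (hs : s ∈ S) (hk : s ∈ centralizer (L : Set G)) : s = 1 ∨ s = t :=
  two s hk (l.sa_ct hs) (isPGroup_iff_forall.1 l.syl.isPGroup s hs)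

theorem Lc.sa_tri (l : Lc L S κ t φ) (two : ∀ k ∈ centralizer (L : Set G), k * t = t * k → Two k → k = 1 ∨ k = t)
    {s : G} (hs : s ∈ S) : ∃ u, (s = κ u ∨ s = κ u * t) ∨ ∃ f ∈ S, Fr L φ f ∧ s = κ u * f := by
  obtain ⟨u, e⟩ := l.act s hs
  have m := mul_mem (l.TS u) hs
  refine ⟨u⁻¹, e.imp (fun e => (l.sa_K two m e).imp (fun e => ?_) fun e => ?_) fun e => ⟨_, m, e, ?_⟩⟩
  · rw [map_inv, eq_inv_of_mul_eq_one_right e]
  · rw [← e, map_inv, inv_mul_cancel_left]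
  · rw [map_inv, inv_mul_cancel_left]

theorem sa_nf (m : Md L κ x n h φ) {f : G} (hf : Fr L φ f) (u : U6) : κ u * f * κ (xZ .w) ≠ κ (xZ .w) * (κ u * f) :=
  fun e => by
    rw [← mul_assoc, ← map_mul, ← sa_zc, map_mul, mul_assoc, mul_assoc, mul_left_cancel_iff,
      ← mul_inv_eq_iff_eq_mul, hf _ (m.mem _), m.fk] at e
    exact absurd (m.inj e) (by decide)

end

theorem saS : SaS.{u} := by
  intro G _ _ L S κ x n h φ t m l two
  have tc : ∀ u, κ u * t = t * κ u := fun u => l.tK _ (m.mem u)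
  refine ⟨?_, fun s hs hc => ?_, fun W WS sq c16 nW e he => ?_⟩
  · obtain ⟨g, hg⟩ : ∃ g, ∀ s ∈ S, ∃ y : U6 × Bool × Bool, s = κ y.1 * cond y.2.1 t 1 * cond y.2.2 g 1 := by
      by_cases e : ∃ f ∈ S, Fr L φ f
      · obtain ⟨f0, h1, h2⟩ := e
        refine ⟨f0⁻¹, fun s hs => ?_⟩
        obtain ⟨u, (rfl | rfl) | ⟨f, h3, h4, rfl⟩⟩ := l.sa_tri two hs
        · exact ⟨(u, false, false), by simp⟩
        · exact ⟨(u, true, false), by simp⟩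
        rcases l.sa_K two (mul_mem h3 h1) fun y hy => (mul_inv_eq_iff_eq_mul.1 (by
          rw [show f * f0 * y * (f * f0)⁻¹ = f * (f0 * y * f0⁻¹) * f⁻¹ by group,
            h4 _ (conj_mem (l.cN _ (l.sa_ct h1)) hy), h2 y hy, m.ff y hy])).symm with e | e
        · exact ⟨(u, false, true), by simp [eq_inv_of_mul_eq_one_left e]⟩
        · exact ⟨(u, true, true), by simp [← e, mul_assoc]⟩
      · refine ⟨1, fun s hs => ?_⟩
        obtain ⟨u, (rfl | rfl) | ⟨f, h3, h4, rfl⟩⟩ := l.sa_tri two hs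
        exacts [⟨(u, false, false), by simp⟩, ⟨(u, true, false), by simp⟩, absurd ⟨f, h3, h4⟩ e]
    choose F hF using hg
    refine (Nat.card_le_card_of_injective (fun s : S => F s s.2) fun a b e => Subtype.ext ?_).trans ?_
    · rw [hF a a.2, hF b b.2, show F a a.2 = F b b.2 from e]
    · rw [Nat.card_prod, U6.card]; simp
  · obtain ⟨u, e | ⟨f, -, h4, rfl⟩⟩ := l.sa_tri two hs
    exacts [⟨u, e⟩, absurd (hc _) (sa_nf m h4 u)]
  have hn : ∀ d ∈ W.comap κ, ∀ q, q * d * q⁻¹ ∈ W.comap κ := fun d hd q => by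
    simpa only [mem_comap, map_mul, map_inv] using nW _ hd q
  have cm : ∀ q, κ q * e * (κ q)⁻¹ * e⁻¹ ∈ W := fun q => mul_mem (nW e he q) (inv_mem he)
  obtain ⟨u, hu | ⟨f, -, h4, rfl⟩⟩ := l.sa_tri two (WS he)
  · by_contra hc
    have k : e * e = κ (u * u) ∧ ∀ q, κ q * e * (κ q)⁻¹ * e⁻¹ = κ (q * u * q⁻¹ * u⁻¹) := by
      rcases hu with rfl | rfl
      · simp
      · refine ⟨by rw [mul_assoc, ← mul_assoc t, ← tc, mul_assoc, l.tt, mul_one, map_mul], fun q => ?_⟩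
        rw [← map_inv, mul_assoc (κ q), mul_assoc (κ u), ← tc]
        simp [mul_assoc]
    have hA := sa_A hn (fun d hd => m.inj (by rw [map_mul, sq _ hd, map_one])) (m.inj (by rw [← k.1, sq e he, map_one]))
      (fun q => show κ _ ∈ W from k.2 q ▸ cm q) fun ⟨p, c, e'⟩ => hc ⟨p, c, e' ▸ hu⟩
    have := Nat.card_le_card_of_injective
      (fun y : Option (K4 × K4) => y.elim (⟨e, he⟩ : W) fun y => ⟨_, hA y.1 y.2⟩) (by
        rintro (_ | ⟨p, c⟩) (_ | ⟨p', c'⟩) e'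
        · rfl
        · exact absurd ⟨p', c', .inl (congrArg Subtype.val e')⟩ hc
        · exact absurd ⟨p, c, .inl (congrArg Subtype.val e').symm⟩ hc
        · have := m.inj (congrArg Subtype.val e')
          rw [show p = p' from congrArg U6.p this, show c = c' from congrArg U6.c this])
    simp [CL.SG2.F4.card] at this
    omega
  · have h1 := cm (xC .w 0)
    rw [show κ (xC .w 0) * (κ u * f) * (κ (xC .w 0))⁻¹ * (κ u * f)⁻¹ =
      κ (xC .w 0) * κ u * (f * κ (xC .w 0)⁻¹ * f⁻¹) * (κ u)⁻¹ by rw [map_inv]; group, h4 _ (m.mem _), m.fk,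
      ← map_inv, ← map_mul, ← map_mul, ← map_mul, show xC .w 0 * u * frob (xC .w 0)⁻¹ * u⁻¹ =
        xC 1 (xC .w 0 * u * frob (xC .w 0)⁻¹ * u⁻¹).c by
          rw [show frob (xC .w 0)⁻¹ = xC (.w + 1) 0 by decide]
          simp only [U6.mul_def, U6.inv_def]; ext1 <;> grind] at h1
    have h2 : κ (xZ .w) ∈ W := sa_V hn h1 .w
    refine absurd ?_ (sa_nf m h4 u)
    rw [← inv_eq_of_mul_eq_one_right (sq _ (mul_mem he h2)), mul_inv_rev, inv_eq_of_mul_eq_one_right (sq _ he),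
      inv_eq_of_mul_eq_one_right (sq _ h2)]

section
variable {G : Type u} [Group G] {ν : F4} (Φ : Heis (R16 ν) →* G)

theorem qe_mul (a b : R16 ν) : Φ ⟨0, 0, a⟩ * Φ ⟨0, 0, b⟩ = Φ ⟨0, 0, a + b⟩ := by
  rw [← map_mul, Heis.mul_def]; simp

theorem qe_sq (a : R16 ν) : Φ ⟨0, 0, a⟩ * Φ ⟨0, 0, a⟩ = 1 := by rw [qe_mul, add_self_R16]; exact map_one Φ

/-- the group `W` -/
def qe_W : Subgroup G where
  carrier := {g | ∃ u, g = Φ ⟨0, 0, u⟩}
  mul_mem' := by rintro _ _ ⟨a, rfl⟩ ⟨b, rfl⟩; exact ⟨_, qe_mul Φ a b⟩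
  one_mem' := ⟨0, (map_one Φ).symm⟩
  inv_mem' := by rintro _ ⟨a, rfl⟩; exact ⟨a, inv_eq_of_mul_eq_one_right (qe_sq Φ a)⟩

variable {Φ} {Q : Subgroup G}

theorem Qd.qe_c (d : Qd Φ Q) {q w : G} (hq : q ∈ Q) (hw : w ∈ qe_W Φ) : Commute q w := by
  obtain ⟨u, rfl⟩ := hw
  exact d.cen q hq u

theorem Qd.qe_four (d : Qd Φ Q) {q : G} (hq : q ∈ Q) : q ^ 2 ^ 2 = 1 := by
  obtain ⟨u, e⟩ := d.sq q hq
  rw [pow_two 2, pow_mul, pow_two, pow_two, e, qe_sq]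

theorem Qd.qe_cj (d : Qd Φ Q) {q y : G} (hq : q ∈ Q) (hy : y ∈ Q) : ∃ w ∈ qe_W Φ, q * y * q⁻¹ = y * w :=
  ⟨_, d.cm q hq y hy, by rw [d.qe_c hy (d.cm q hq y hy)]; group⟩

end

theorem qeS : QeS.{u} := by
  intro uf G _ _ L S κ x n h φ t ι ν Φ m l db yc cm d sa
  have tc : ∀ y ∈ L, y * t = t * y := l.tK
  have zc : ∀ u, κ u * κ (xZ 1) = κ (xZ 1) * κ u := fun u => by rw [← map_mul, sa_zc, map_mul]
  have nrm : ∀ s : G, (∀ g ∈ L, g * κ (xZ 1) = κ (xZ 1) * g → ∀ r u, ∃ g' ∈ L, g' * κ (xZ 1) = κ (xZ 1) * g' ∧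
      ∃ r' u', s * (g * Φ ⟨r, 0, u⟩ * g⁻¹) * s⁻¹ = g' * Φ ⟨r', 0, u'⟩ * g'⁻¹) → s ∈ 𝒩(QQ L κ Φ) := fun s hs =>
    mem_norm_of_cj_le (map_le_iff_le_comap.2 ((closure_le _).2 (by
      rintro _ ⟨g, h1, h2, r, u, rfl⟩
      exact subset_closure (hs g h1 h2 r u))))
  have nT : ∀ u, κ u ∈ 𝒩(QQ L κ Φ) := fun u => nrm _ fun g h1 h2 r v =>
    ⟨κ u * g, mul_mem (m.mem u) h1, (show Commute _ _ from zc u).mul_left h2, r, v, by group⟩
  have nt : t ∈ 𝒩(QQ L κ Φ) := nrm _ fun g h1 h2 r v => ⟨g, h1, h2, star r, star v, by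
    have := db.act ⟨r, 0, v⟩
    rw [star_zero] at this
    rw [← this, show t * (g * Φ ⟨r, 0, v⟩ * g⁻¹) * t⁻¹ = t * g * Φ ⟨r, 0, v⟩ * (t * g)⁻¹ by group, ← tc g h1]
    group⟩
  have nS : S ≤ 𝒩(QQ L κ Φ) := fun s hs => by
    obtain ⟨u, (rfl | rfl) | ⟨f, h3, h4, rfl⟩⟩ := l.sa_tri db.two hs
    exacts [nT u, mul_mem (nT u) nt, mul_mem (nT u) (nrm _ fun g h1 h2 r v => by
      have fz : f * κ (xZ 1) * f⁻¹ = κ (xZ 1) := by rw [h4 _ (m.mem _), m.fk]; rfl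
      obtain ⟨r', v', e⟩ := yc.aa f (l.sa_ct h3) (.inr ((h4 x m.xL).trans m.fx))
        (fun p c => ⟨p ^ 2, c ^ 2, by rw [h4 _ (m.mem _), m.fk]; rfl⟩) r v
      exact ⟨f * g * f⁻¹, conj_mem (l.cN f (l.sa_ct h3)) h1, by rw [← fz, conj_mul, conj_mul, h2], r', v', by
        rw [← e]; group⟩)]
  have Lc : ∀ u : U6, ∀ w ∈ qe_W Φ, Commute (κ u) w := by
    rintro u _ ⟨e, rfl⟩
    exact cm.cw _ (m.mem u) (zc u) e
  have cK : ∀ k ∈ centralizer (L : Set G), k * t = t * k → Odd (orderOf k) → QQ L κ Φ ≤ centralizer {k} :=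
    fun k h1 h2 h3 => (closure_le _).2 (by
      rintro _ ⟨g, g1, -, r, u, rfl⟩
      have c : Commute g k := h1 g g1
      exact mem_centralizer_singleton_iff.2 ((c.mul_left (yc.co k h1 h2 h3 r u).symm).mul_left c.inv_left).eq)
  generalize QQ L κ Φ = Q at *
  have q1 : ∀ u : U6, u.s = 0 → κ u ∈ Q := uf.gen (Q.comap κ) fun s r => by
    obtain ⟨b, c, e⟩ := (db.aB _).2 ⟨r, 0, rfl⟩
    rw [mem_comap, map_mul, map_mul, map_inv, e, ← db.ext]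
    exact conj_mem (nT _) (d.mem _)
  have tW : ∀ w ∈ qe_W Φ, ∃ w' ∈ qe_W Φ, w * t * w⁻¹ = t * w' := by
    rintro _ ⟨u, rfl⟩
    have := db.act ⟨0, 0, u⟩
    rw [star_zero] at this
    refine ⟨t * Φ ⟨0, 0, u⟩ * t⁻¹ * (Φ ⟨0, 0, u⟩)⁻¹, mul_mem ⟨_, this⟩ (inv_mem ⟨_, rfl⟩), ?_⟩
    rw [inv_eq_of_mul_eq_one_right l.tt, ← mul_assoc, ← mul_assoc, ← mul_assoc, l.tt, one_mul]
  let D : Subgroup U6 :=
    { carrier := {u | u.s = 0 ∧ ∃ q ∈ Q, ∃ w ∈ qe_W Φ, q * t * q⁻¹ = t * κ u * w}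
      mul_mem' := by
        rintro u u' ⟨h1, q, hq, w, hw, e⟩ ⟨h2, q', hq', w', hw', e'⟩
        obtain ⟨c, hc, e''⟩ := d.qe_cj hq (q1 u' h2)
        refine ⟨by rw [U6.mul_def, h1, h2]; rfl, q * q', mul_mem hq hq', w * c * w', mul_mem (mul_mem hw hc) hw', ?_⟩
        rw [show q * q' * t * (q * q')⁻¹ = q * (q' * t * q'⁻¹) * q⁻¹ by group, e', mul_assoc q, mul_assoc _ w',
          ← (d.qe_c (inv_mem hq) hw').eq, show q * (t * κ u' * (q⁻¹ * w')) = q * t * q⁻¹ * (q * κ u' * q⁻¹) * w' by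
            group, e, e'', map_mul, mul_assoc _ w, ← mul_assoc w, ← (Lc u' w hw).eq]
        group
      one_mem' := ⟨rfl, 1, one_mem _, 1, one_mem _, by simp⟩
      inv_mem' := by
        rintro u ⟨h1, q, hq, w, hw, e⟩
        obtain ⟨c, hc, e''⟩ := d.qe_cj (inv_mem hq) (q1 u h1)
        refine ⟨h1, q⁻¹, inv_mem hq, w⁻¹ * c⁻¹, mul_mem (inv_mem hw) (inv_mem hc), ?_⟩
        have e1 : t = q⁻¹ * t * q⁻¹⁻¹ * (κ u * c) * w := by
          rw [← e'', show q⁻¹ * t * q⁻¹⁻¹ * (q⁻¹ * κ u * q⁻¹⁻¹) * w = q⁻¹ * (t * κ u * (q * w)) by group,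
            (d.qe_c hq hw).eq, ← mul_assoc _ w, ← e]
          group
        rw [mul_assoc t, (Lc u⁻¹ _ (mul_mem (inv_mem hw) (inv_mem hc))).eq, map_inv]
        conv_rhs => rw [e1]
        group }
  have tau : ∀ u : U6, u.s = 0 → ∃ q ∈ Q, ∃ w ∈ qe_W Φ, q * t * q⁻¹ = t * κ u * w := fun u hu =>
    (uf.gen D (fun s r => ⟨by simp [U6.mul_def, U6.inv_def], by
      obtain ⟨b, c, e⟩ := (db.aB _).2 ⟨r, 0, rfl⟩
      refine ⟨κ (xa s) * Φ ⟨0, ⟨0, b⟩, 0⟩ * (κ (xa s))⁻¹, conj_mem (nT _) (d.mem _), _, ⟨⟨c, 0⟩, rfl⟩, ?_⟩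
      have e1 : Φ ⟨0, ⟨0, b⟩, 0⟩ * t * (Φ ⟨0, ⟨0, b⟩, 0⟩)⁻¹ = t * (κ (xb r) * Φ ⟨0, 0, ⟨c, 0⟩⟩) := by
        have := db.act ⟨0, ⟨0, b⟩, 0⟩
        rw [inv_eq_of_mul_eq_one_right l.tt, star_zero, star_add] at this
        rw [← mul_left_cancel_iff (a := t), ← mul_assoc, ← mul_assoc, this, ← mul_assoc, l.tt, one_mul, e, ← db.ext,
          ← map_inv, ← map_mul, ← map_mul]
        refine congrArg Φ (Heis.ext ?_ ?_ ?_) <;> refine QuadraticAlgebra.ext ?_ ?_ <;> simp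
        exact (by decide +kernel : ∀ c : F4, 0 = c + c) c
      have c1 : Commute (κ (xa s)) t := tc _ (m.mem _)
      rw [show κ (xa s) * Φ ⟨0, ⟨0, b⟩, 0⟩ * (κ (xa s))⁻¹ * t * (κ (xa s) * Φ ⟨0, ⟨0, b⟩, 0⟩ * (κ (xa s))⁻¹)⁻¹ =
        κ (xa s) * (Φ ⟨0, ⟨0, b⟩, 0⟩ * ((κ (xa s))⁻¹ * t * κ (xa s)) * (Φ ⟨0, ⟨0, b⟩, 0⟩)⁻¹) * (κ (xa s))⁻¹ by group,
        c1.inv_left.eq, inv_mul_cancel_right, e1, map_mul, map_mul, map_inv, mul_assoc _ _ (Φ _), mul_assoc _ _ (Φ _),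
        (Lc (xa s) _ ⟨_, rfl⟩).inv_left.eq, ← mul_assoc (κ _) t, c1.eq]
      group⟩) u hu).2
  have kW : ∀ a a' : U6, κ (a'⁻¹ * a) ∈ qe_W Φ → a.r = a'.r ∧ a.v = a'.v ∧ a.w = a'.w ∧ a.p = a'.p := by
    rintro a a' ⟨⟨u1, u2⟩, e⟩
    have h1 := db.act ⟨0, 0, ⟨u1, u2⟩⟩
    rw [← e, ← tc _ (m.mem _), mul_inv_cancel_right, e, star_add] at h1
    obtain rfl : u2 = 0 := by simpa using congrArg (fun p => p.c.re) (db.inj h1)
    obtain ⟨c, h2⟩ := (db.aV _).1 ⟨u1, e.trans (db.ext 0 0 u1)⟩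
    rw [inv_mul_eq_iff_eq_mul.1 (m.inj h2)]
    simp [U6.mul_def]
  have card : 2 ^ 20 ≤ Nat.card Q := by
    choose F F1 w w1 F2 using fun y : K4 × K4 × K4 × K4 => tau ⟨0, y.1, y.2.1, y.2.2.1, y.2.2.2, 0⟩ rfl
    have := Nat.card_le_card_of_injective (fun y : (K4 × K4 × K4 × K4) × (K4 × K4 × K4 × K4) × R16 ν =>
      (⟨F y.1 * κ ⟨0, y.2.1.1, y.2.1.2.1, y.2.1.2.2.1, y.2.1.2.2.2, 0⟩ * Φ ⟨0, 0, y.2.2⟩,
        mul_mem (mul_mem (F1 _) (q1 _ rfl)) (d.mem _)⟩ : Q)) (by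
      rintro ⟨y, a, u⟩ ⟨y', a', u'⟩ e
      replace e := congrArg Subtype.val e
      dsimp only at e
      have k : ∀ y (a : U6) u, ∃ w' ∈ qe_W Φ, F y * κ a * Φ ⟨0, 0, u⟩ * t * (F y * κ a * Φ ⟨0, 0, u⟩)⁻¹ =
          t * κ ⟨0, y.1, y.2.1, y.2.2.1, y.2.2.2, 0⟩ * w' := fun y a u => by
        obtain ⟨w', h1, h2⟩ := tW _ ⟨u, rfl⟩
        refine ⟨w y * w', mul_mem (w1 y) h1, ?_⟩
        rw [show F y * κ a * Φ ⟨0, 0, u⟩ * t * (F y * κ a * Φ ⟨0, 0, u⟩)⁻¹ =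
          F y * (κ a * (Φ ⟨0, 0, u⟩ * t * (Φ ⟨0, 0, u⟩)⁻¹) * (κ a)⁻¹) * (F y)⁻¹ by group, h2,
          ((show Commute (κ a) t from tc _ (m.mem a)).mul_right (Lc a w' h1)).eq, mul_inv_cancel_right, ← mul_assoc,
          mul_assoc _ w', ← (d.qe_c (inv_mem (F1 y)) h1).eq, ← mul_assoc, F2, mul_assoc]
      obtain ⟨w0, h1, h2⟩ := k y ⟨0, a.1, a.2.1, a.2.2.1, a.2.2.2, 0⟩ u
      obtain ⟨w0', h1', h2'⟩ := k y' ⟨0, a'.1, a'.2.1, a'.2.2.1, a'.2.2.2, 0⟩ u'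
      rw [e, h2', mul_assoc, mul_assoc, mul_left_cancel_iff] at h2
      obtain ⟨e1, e2, e3, e4⟩ := kW ⟨0, y.1, y.2.1, y.2.2.1, y.2.2.2, 0⟩ ⟨0, y'.1, y'.2.1, y'.2.2.1, y'.2.2.2, 0⟩ (by
        rw [map_mul, map_inv, ← mul_inv_eq_iff_eq_mul.2 h2, mul_assoc, inv_mul_cancel_left]
        exact mul_mem h1' (inv_mem h1))
      obtain rfl : y = y' := Prod.ext e1 (Prod.ext e2 (Prod.ext e3 e4))
      rw [mul_assoc, mul_assoc, mul_left_cancel_iff] at e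
      obtain ⟨e1, e2, e3, e4⟩ := kW ⟨0, a.1, a.2.1, a.2.2.1, a.2.2.2, 0⟩ ⟨0, a'.1, a'.2.1, a'.2.2.1, a'.2.2.2, 0⟩ (by
        rw [map_mul, map_inv, eq_mul_inv_of_mul_eq e, mul_assoc, inv_mul_cancel_left]
        exact mul_mem ⟨_, rfl⟩ (inv_mem ⟨_, rfl⟩))
      obtain rfl : a = a' := Prod.ext e1 (Prod.ext e2 (Prod.ext e3 e4))
      rw [show u = u' from congrArg Heis.c (db.inj (mul_left_cancel e))])
    simp only [Nat.card_prod, card_R16, show Nat.card K4 = 4 from Nat.card_eq_fintype_card] at this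
    exact this
  refine ⟨nS, q1, fun u hu => ?_, fun k h1 h2 q hq ⟨j, hj⟩ => ?_, fun g hq => ?_, card⟩
  · obtain ⟨q, hq, _, ⟨e, rfl⟩, e'⟩ := tau u hu
    exact ⟨q, hq, e, e'⟩
  · obtain ⟨i, hi⟩ := exists_pow_coprime (p := 2) k
    obtain ⟨i', hi'⟩ := exists_pow_eq_self_of_coprime (hi.symm.pow_left i)
    have c : Commute k ((k ^ 2 ^ i) ^ i') := ((Commute.refl k).pow_right _).pow_right _
    have oK : (k ^ 2 ^ i) ^ i' ∈ centralizer (L : Set G) := pow_mem (pow_mem h1 _) _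
    have ot : Commute ((k ^ 2 ^ i) ^ i') t := ((show Commute k t from h2).pow_left _).pow_left _
    have oo : (orderOf ((k ^ 2 ^ i) ^ i')).Coprime 2 := hi.coprime_dvd_left (orderOf_pow_dvd _)
    have h3 := db.two (k * ((k ^ 2 ^ i) ^ i')⁻¹) (mul_mem h1 (inv_mem oK))
      ((show Commute k t from h2).mul_left ot.inv_left) ⟨i, by
        rw [c.inv_right.mul_pow, inv_pow, pow_right_comm _ i', hi', mul_inv_cancel]⟩
    have oq : Commute q ((k ^ 2 ^ i) ^ i') :=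
      mem_centralizer_singleton_iff.1 (cK _ oK ot (Nat.coprime_two_right.1 oo) hq)
    generalize (k ^ 2 ^ i) ^ i' = o at *
    have h4 : (q * (k * o⁻¹)) ^ 2 ^ 3 = 1 := by
      rw [pow_succ' 2, pow_mul]
      refine d.qe_four ?_
      rcases h3 with e | e <;> rw [e]
      · simpa using pow_mem hq 2
      · have := mul_mem hq (conj_mem nt hq)
        rwa [inv_eq_of_mul_eq_one_right l.tt, ← mul_assoc, ← mul_assoc, mul_assoc (q * t), ← pow_two] at this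
    have h5 : (q * (k * o⁻¹) * o) ^ 2 ^ (j + 3) = 1 := by
      rw [mul_assoc, inv_mul_cancel_right, pow_add, pow_mul, hj, one_pow]
    rw [(oq.mul_left (c.mul_left (Commute.refl o).inv_left)).mul_pow, add_comm, pow_add, pow_mul, h4, one_pow, one_mul,
      ← pow_add] at h5
    rwa [eq_one_of_coprime_of_pow oo h5, inv_one, mul_one] at h3
  · let f : Q →* G := MonoidHom.mk' (fun y => y * (g * t * g⁻¹) * (y : G)⁻¹ * (g * t * g⁻¹)⁻¹) fun y y' => by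
      generalize g * t * g⁻¹ = q at hq
      have c1 := d.qe_c y.2 (d.cm _ y'.2 q hq)
      have c2 := d.qe_c hq (d.cm _ y'.2 q hq)
      rw [((c1.mul_left c2).mul_left c1.inv_left).mul_left c2.inv_left, ← mul_assoc, ← mul_assoc, ← mul_assoc, ← c1.eq,
        coe_mul]
      group
    have h1 : Nat.card f.range ≤ 16 := by
      rw [← card_R16 ν]
      choose F hF using fun y : f.range => (show (y : G) ∈ qe_W Φ by
        obtain ⟨_, a, rfl⟩ := y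
        exact d.cm _ a.2 _ hq)
      exact Nat.card_le_card_of_injective F fun a b e => Subtype.ext (by rw [hF, hF, e])
    have h2 := l.syl.card_le (U := cj g⁻¹ (f.ker.map Q.subtype)) (isPGroup_cj (IsPGroup.to_le
      (isPGroup_iff_forall.2 fun q hq => ⟨2, d.qe_four hq⟩) (map_subtype_le _)) _) (by
        rintro _ ⟨_, ⟨y, hy, rfl⟩, rfl⟩
        have e : y * (g * t * g⁻¹) = g * t * g⁻¹ * y := mul_inv_eq_iff_eq_mul.1 (mul_inv_eq_one.1 hy)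
        refine mem_centralizer_singleton_iff.2 ?_
        change g⁻¹ * y * g⁻¹⁻¹ * t = t * (g⁻¹ * y * g⁻¹⁻¹)
        calc _ = g⁻¹ * (y * (g * t * g⁻¹)) * g := by group
          _ = _ := by rw [e]; group)
    rw [card_cj, card_map_subtype] at h2
    have h3 := f.ker.card_mul_index
    rw [index_ker] at h3
    have := sa.card
    have := Nat.mul_le_mul (h2.trans this) h1
    omega

end CL.G2R
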