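/-
Project G2R: the normalizers of `Y_A` and `Y_B`, and the commutators of the conjugates of `Y_A`.
-/
import Cfsg.Agent.G2R.Defs

set_option autoImplicit false
set_option linter.unusedSectionVars false
set_option linter.constructorNameAsVariable false

universe u

namespace CL.G2R
open Subgroup CL.Grp CL.L34

/-- the elements of `Y_A` (`b = true`) and of `Y_B` (`b = false`) -/
def yc_F {R : Type} [Zero R] (b : Bool) (r u : R) : Heis R := cond b ⟨r, 0, u⟩ ⟨0, r, u⟩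

theorem yc_mul {R : Type} [CommRing R] (b : Bool) (r u r' u' : R) :
    yc_F b r u * yc_F b r' u' = yc_F b (r + r') (u + u') := by
  cases b <;> simp [yc_F, Heis.mul_def]

theorem yc_inj {R : Type} [CommRing R] {b : Bool} {r u r' u' : R} (h : yc_F b r u = yc_F b r' u') : r = r' ∧ u = u' := by
  cases b <;> simpa [yc_F] using h

theorem yc_zero {R : Type} [CommRing R] (b : Bool) : yc_F b (0 : R) 0 = 1 := by cases b <;> rfl

theorem yc_star {ν : F4} (r : R16 ν) : star r + r = ⟨r.im, 0⟩ := by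
  obtain ⟨a, b⟩ := r
  rw [star_add]
  refine QuadraticAlgebra.ext ?_ ?_ <;> simp only [QuadraticAlgebra.re_add, QuadraticAlgebra.im_add] <;>
    revert a b <;> decide +kernel

theorem yc_tor : ∀ s v w p c : K4, ∃ p' c', (⟨s, 0, v, w, p, c⟩ : U6) * tor .v 1 ⟨s, 0, v, w, p, c⟩ *
    tor .v 1 (tor .v 1 ⟨s, 0, v, w, p, c⟩) = xC p' c' := by decide +kernel

theorem yc_cA {q : U6} (h : q.r = 0) (p c : K4) : q * xC p c = xC p c * q := by
  simp only [U6.mul_def, h]; ext1 <;> grind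

variable {G : Type u} [Group G] {L S : Subgroup G} {κ : U6 →* G} {x n h t : G} {φ : G → G} {ι : Heis F4 →* G} {ν : F4}
  {Φ : Heis (R16 ν) →* G}

theorem yc_sq (Φ : Heis (R16 ν) →* G) (b : Bool) (r u : R16 ν) : Φ (yc_F b r u) * Φ (yc_F b r u) = 1 := by
  rw [← map_mul, yc_mul, add_self_R16, add_self_R16, yc_zero, map_one]

theorem yc_cm (Φ : Heis (R16 ν) →* G) (b : Bool) (r u r' u' : R16 ν) :
    Φ (yc_F b r u) * Φ (yc_F b r' u') = Φ (yc_F b r' u') * Φ (yc_F b r u) := by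
  rw [← map_mul, ← map_mul, yc_mul, yc_mul, add_comm r, add_comm u]

section
variable (D : Db L κ t x ι Φ)
include D

theorem yc_ext (b : Bool) (a c : F4) : ι (yc_F b a c) = Φ (yc_F b ⟨a, 0⟩ ⟨c, 0⟩) := by
  cases b <;> exact (D.ext _ _ _).symm

theorem yc_iinj {b : Bool} {a c a' c' : F4} (e : ι (yc_F b a c) = ι (yc_F b a' c')) : a = a' ∧ c = c' := by
  rw [yc_ext D, yc_ext D] at e
  exact (yc_inj (D.inj e)).imp (congrArg QuadraticAlgebra.re) (congrArg QuadraticAlgebra.re)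

theorem yc_tr (tt : t * t = 1) (b : Bool) (r u : R16 ν) : Tr ι t (Φ (yc_F b r u)) (yc_F b r.im u.im) := by
  have h1 : t * Φ (yc_F b r u) * t⁻¹ = Φ (yc_F b (star r) (star u)) := by cases b <;> simp [D.act, yc_F]
  rw [Tr, yc_ext D, ← yc_star, ← yc_star, ← yc_mul, map_mul, ← h1, inv_eq_of_mul_eq_one_right tt,
    inv_eq_of_mul_eq_one_right (yc_sq Φ b r u), ← mul_assoc, ← mul_assoc, ← mul_assoc, tt, one_mul]

theorem yc_nt (p : Heis (R16 ν)) : t ≠ Φ p := fun e => by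
  have h1 := D.act ⟨0, 0, ⟨0, 1⟩⟩
  rw [e, ← map_inv, ← map_mul, ← map_mul] at h1
  have h2 := congrArg (fun p : Heis (R16 ν) => p.c) (D.inj h1)
  simp only [Heis.mul_c, Heis.inv_c, Heis.mul_a, Heis.inv_b, star_add] at h2
  have h3 : (⟨0, 1⟩ : R16 ν) = ⟨0 + 1, 1⟩ := by linear_combination h2
  exact absurd (congrArg QuadraticAlgebra.re h3) (by show ¬ (0 : F4) = 0 + 1; decide +kernel)

theorem yc_y (b : Bool) {g : G} (h1 : g * x = x * g) (h2 : ∀ a c, g * ι (yc_F b a c) = ι (yc_F b a c) * g) (h3 : Two g)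
    (h4 : ∃ a c, Tr ι t g (yc_F b a c)) : ∃ r u, g = Φ (yc_F b r u) ∨ g = Φ (yc_F b r u) * t := by
  cases b
  · exact D.yB g h1 (fun a c => by rw [MonoidHom.comp_apply, gr_A]; exact h2 a c) h3 h4
  · exact D.yA g h1 h2 h3 h4

theorem yc_surj {b b' : Bool} {g : G} (hg : ∀ a c, ∃ a' c', g * ι (yc_F b a c) * g⁻¹ = ι (yc_F b' a' c')) (a' c' : F4) :
    ∃ a c, g * ι (yc_F b a c) * g⁻¹ = ι (yc_F b' a' c') := by
  choose f1 f2 hf using hg
  obtain ⟨⟨a, c⟩, e⟩ := Finite.surjective_of_injective (f := fun p : F4 × F4 => (f1 p.1 p.2, f2 p.1 p.2))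
    (fun p q e => by
      have := hf p.1 p.2
      rw [(Prod.mk.inj e).1, (Prod.mk.inj e).2, ← hf, mul_left_inj, mul_right_inj] at this
      exact Prod.ext (yc_iinj D this).1 (yc_iinj D this).2) (a', c')
  exact ⟨a, c, by rw [hf, (Prod.mk.inj e).1, (Prod.mk.inj e).2]⟩

theorem yc_core (tt : t * t = 1) (b b' : Bool) {g : G} (gt : g * t = t * g) (gx : g * x * g⁻¹ = x ∨ g * x * g⁻¹ = x⁻¹)
    (hg : ∀ a c, ∃ a' c', g * ι (yc_F b a c) * g⁻¹ = ι (yc_F b' a' c')) (r u : R16 ν) :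
    ∃ r' u', g * Φ (yc_F b r u) * g⁻¹ = Φ (yc_F b' r' u') := by
  have e0 : g * t * g⁻¹ = t := by rw [gt, mul_inv_cancel_right]
  have sq : g * Φ (yc_F b r u) * g⁻¹ * (g * Φ (yc_F b r u) * g⁻¹) = 1 := by rw [conj_mul, yc_sq, mul_one, mul_inv_cancel]
  obtain ⟨r', u', e | e⟩ := yc_y D b' (g := g * Φ (yc_F b r u) * g⁻¹) (by
      have h1 := (show Commute (Φ (yc_F b r u)) x from D.cx _).conj g
      rcases gx with e | e <;> rw [e] at h1
      exacts [h1, Commute.inv_right_iff.1 h1])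
    (fun a' c' => by
      obtain ⟨a, c, e⟩ := yc_surj D hg a' c'
      rw [← e, conj_mul, conj_mul, yc_ext D, yc_cm])
    ⟨1, by rw [pow_one, pow_two, sq]⟩ (by
      obtain ⟨a, c, e⟩ := hg r.im u.im
      refine ⟨a, c, ?_⟩
      rw [Tr, ← e]
      conv_lhs => rw [← e0]
      conv_rhs => rw [← e0, conj_mul, ← yc_tr D tt b r u]
      group)
  · exact ⟨r', u', e⟩
  exfalso
  have h1 := yc_tr D tt b' r' u'
  rw [e, ← mul_assoc] at sq
  rw [Tr, inv_eq_of_mul_eq_one_right (yc_sq Φ b' r' u'), eq_inv_of_mul_eq_one_left sq, inv_eq_of_mul_eq_one_right tt,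
    left_eq_mul, ← map_one ι, ← yc_zero b'] at h1
  obtain ⟨h3, h4⟩ := yc_iinj D h1
  obtain ⟨a, c, e'⟩ := yc_surj D hg r'.re u'.re
  rw [yc_ext D b', show (⟨r'.re, 0⟩ : R16 ν) = r' from QuadraticAlgebra.ext rfl h3.symm,
    show (⟨u'.re, 0⟩ : R16 ν) = u' from QuadraticAlgebra.ext rfl h4.symm] at e'
  rw [← e', ← e0, conj_mul, mul_left_inj, mul_right_inj, yc_ext D, ← inv_mul_eq_iff_eq_mul, ← map_inv,
    ← map_mul] at e
  exact yc_nt D _ e.symm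

theorem yc_AA {g : G} (hg : ∀ p c, ∃ p' c', g * κ (xC p c) * g⁻¹ = κ (xC p' c')) (a c : F4) :
    ∃ a' c', g * ι (yc_F true a c) * g⁻¹ = ι (yc_F true a' c') := by
  obtain ⟨p, d, e⟩ := (D.aA _).1 ⟨a, c, rfl⟩
  exact (D.aA _).2 (e ▸ hg p d)

theorem yc_AB {g : G} (hg : ∀ p c, ∃ r' c', g * κ (xC p c) * g⁻¹ = κ ⟨0, r', 0, 0, 0, c'⟩) (a c : F4) :
    ∃ a' c', g * ι (yc_F true a c) * g⁻¹ = ι (yc_F false a' c') := by
  obtain ⟨p, d, e⟩ := (D.aA _).1 ⟨a, c, rfl⟩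
  exact (D.aB _).2 (e ▸ hg p d)

theorem yc_yA (r u : R16 ν) (p c : K4) : Commute (Φ (yc_F true r u)) (κ (xC p c)) := by
  obtain ⟨a, d, e⟩ := (D.aA _).2 ⟨p, c, rfl⟩
  rw [e, ← D.ext]
  exact yc_cm Φ true _ _ _ _

theorem yc_co (M : Md L κ x n h φ) (tt : t * t = 1) {k : G} (hk : k ∈ centralizer (L : Set G)) (kt : k * t = t * k)
    (ho : Odd (orderOf k)) (r u : R16 ν) : k * Φ (yc_F true r u) = Φ (yc_F true r u) * k := by
  have kA : ∀ a c, k * ι (yc_F true a c) * k⁻¹ = ι (yc_F true a c) := fun a c => by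
    obtain ⟨p, d, e⟩ := (D.aA _).1 ⟨a, c, rfl⟩
    rw [show ι (yc_F true a c) = _ from e, ← hk _ (M.mem _), mul_inv_cancel_right]
  obtain ⟨r', u', e⟩ := yc_core D tt true true kt (.inl (by rw [← hk x M.xL, mul_inv_cancel_right]))
    (fun a c => ⟨a, c, kA a c⟩) r u
  have e0 : k * t * k⁻¹ = t := by rw [kt, mul_inv_cancel_right]
  have h1 := yc_tr D tt true r' u'
  rw [Tr, ← e, show k * Φ (yc_F true r u) * k⁻¹ * t * (k * Φ (yc_F true r u) * k⁻¹)⁻¹ =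
    k * (Φ (yc_F true r u) * (k⁻¹ * t * k) * (Φ (yc_F true r u))⁻¹) * k⁻¹ by group, mul_assoc k⁻¹, ← kt,
    inv_mul_cancel_left, yc_tr D tt, ← conj_mul, e0, kA, mul_right_inj] at h1
  obtain ⟨h2, h3⟩ := yc_iinj D h1
  have z : ∀ a : F4, a + a = 0 := by decide +kernel
  have h4 : Φ (yc_F true r' u') = Φ (yc_F true r u) * ι (yc_F true (r + r').re (u + u').re) := by
    rw [yc_ext D, show (⟨(r + r').re, 0⟩ : R16 ν) = r + r' from QuadraticAlgebra.ext rfl (by simp [h2, z]),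
      show (⟨(u + u').re, 0⟩ : R16 ν) = u + u' from QuadraticAlgebra.ext rfl (by simp [h3, z]), ← map_mul, yc_mul,
      ← add_assoc, ← add_assoc, add_self_R16, add_self_R16, zero_add, zero_add]
  have h5 : Commute (k * k) (Φ (yc_F true r u)) := mul_inv_eq_iff_eq_mul.1 (by
    rw [show k * k * Φ (yc_F true r u) * (k * k)⁻¹ = k * (k * Φ (yc_F true r u) * k⁻¹) * k⁻¹ by group, e, h4,
      ← conj_mul, e, kA, h4, mul_assoc, yc_ext D, yc_sq, mul_one])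
  obtain ⟨j, hj⟩ := ho
  have h6 := h5.pow_left (j + 1)
  rwa [← pow_two, ← pow_mul, show 2 * (j + 1) = orderOf k + 1 by omega, pow_succ, pow_orderOf_eq_one, one_mul] at h6

theorem yc_cy (U : UF) (M : Md L κ x n h φ) (A : Api L κ x) (C : Lc L S κ t φ) (r u : R16 ν) {q : U6} (hq : q.r = 0) :
    κ q * Φ (yc_F true r u) = Φ (yc_F true r u) * κ q := by
  have yy := yc_sq Φ true r u
  have yA := yc_yA D r u
  have yx : Commute x (Φ (yc_F true r u)) := (D.cx _).symm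
  have yt := yc_tr D C.tt true r u
  obtain ⟨p0, c0, e0⟩ := (D.aA _).1 ⟨r.im, u.im, rfl⟩
  rw [Tr, show ι (yc_F true r.im u.im) = _ from e0] at yt
  generalize Φ (yc_F true r u) = y at yy yA yx yt
  have yi : y⁻¹ = y := inv_eq_of_mul_eq_one_right yy
  have tL : ∀ l ∈ L, Commute l t := fun l hl => C.tK l hl
  have cA : ∀ {q : U6}, q.r = 0 → ∀ p c, Commute (κ q) (κ (xC p c)) := fun hq p c => by
    rw [Commute, SemiconjBy, ← map_mul, ← map_mul, yc_cA hq]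
  have xc : ∀ q, y * κ (tor .v 1 q) * y⁻¹ = x * (y * κ q * y⁻¹) * x⁻¹ := fun q => by
    rw [← M.ax, show x * (y * κ q * y⁻¹) * x⁻¹ = x * y * κ q * (x * y)⁻¹ by group, yx.eq]
    group
  have H1 : ∀ q : U6, q.r = 0 → ∃ q' : U6, q'.r = 0 ∧ (y * κ q * y⁻¹ = κ q' ∨ y * κ q * y⁻¹ = κ q' * t) := fun q hq => by
    have a1 : ∀ p c, Commute (y * κ q * y⁻¹) (κ (xC p c)) := fun p c =>
      ((yA p c).mul_left (cA hq p c)).mul_left (yA p c).inv_left
    have a2 : Commute (y * κ q * y⁻¹) t := by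
      have := ((tL _ (M.mem q)).mul_right (cA hq p0 c0)).conj y
      rw [yi]
      rwa [← yt, yi, ← mul_assoc y (y * t), ← mul_assoc y y, yy, one_mul, mul_assoc t, yy, mul_one] at this
    obtain ⟨l, hl, hk⟩ := A.inn _ (C.cN _ a2) fun c => a1 0 c
    obtain ⟨b1, b2⟩ := two_split M.cen (inv_mem hl) hk (by
      obtain ⟨m, hm⟩ := M.syl.isPGroup ⟨κ q, q, rfl⟩
      exact ⟨m, by rw [inv_mul_cancel_left, conj_pow, show κ q ^ 2 ^ m = 1 from congrArg Subtype.val hm]; simp⟩)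
    obtain ⟨q', b3, b4⟩ := A.cA _ (inv_mem hl) (fun p c => by
      have := (a1 p c).mul_left (show Commute (κ (xC p c)) _ from hk _ (M.mem _)).symm.inv_left
      rwa [mul_inv_rev, mul_inv_cancel_left] at this) b1
    refine ⟨q', b3, (D.two _ hk ((tL l hl).mul_left a2) b2).imp (fun e => ?_) fun e => ?_⟩ <;> rw [← b4]
    · exact eq_inv_of_mul_eq_one_right e
    · rw [← e, inv_mul_cancel_left]
  have H2 : ∀ q : U6, ∃ q' : U6, q.r = 0 → q'.r = 0 ∧ y * κ q * y⁻¹ = κ q' := fun q => by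
    by_cases hq : q.r = 0
    swap
    · exact ⟨q, fun h => absurd h hq⟩
    obtain ⟨q', b1, e | e⟩ := H1 q hq
    · exact ⟨q', fun _ => ⟨b1, e⟩⟩
    exfalso
    have k : ∀ {a a' : U6}, y * κ a * y⁻¹ = κ a' * t → y * κ (tor .v 1 a) * y⁻¹ = κ (tor .v 1 a') * t := fun e => by
      rw [xc, e, ← conj_mul, M.ax, tL x M.xL, mul_inv_cancel_right]
    obtain ⟨s, _, v, w, p, c⟩ := q
    obtain rfl := hq
    obtain ⟨p', c', e1⟩ := yc_tor s v w p c
    have e2 := congrArg (fun a => y * κ a * y⁻¹) e1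
    simp only [map_mul] at e2
    rw [← conj_mul, ← conj_mul, k (k e), k e, e, yA, mul_inv_cancel_right, mul_assoc (κ q'), ← mul_assoc t,
      ← tL _ (M.mem _), mul_assoc _ t t, C.tt, mul_one, ← mul_assoc, ← eq_inv_mul_iff_mul_eq] at e2
    exact C.t1 (M.cen t (e2 ▸ mul_mem (inv_mem (mul_mem (mul_mem (M.mem _) (M.mem _)) (M.mem _))) (M.mem _)) C.tK)
  choose θ hθ using H2
  have H3 := U.th θ (fun a ha => ⟨(hθ a ha).1, M.inj (by
      rw [← (hθ _ (hθ a ha).1).2, ← (hθ a ha).2, yi, ← mul_assoc, ← mul_assoc, yy, one_mul, mul_assoc, yy, mul_one]),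
      M.inj (by rw [← (hθ _ (by simp [tor, ha])).2, xc, (hθ a ha).2, M.ax])⟩)
    (fun a b ha hb => M.inj (by
      rw [← (hθ _ (by simp [U6.mul_def, ha, hb])).2, map_mul, map_mul, ← (hθ a ha).2, ← (hθ b hb).2, conj_mul]))
    (fun p c => M.inj (by rw [← (hθ _ rfl).2, yA, mul_inv_cancel_right])) q hq
  have := (hθ q hq).2
  rw [H3] at this
  exact (mul_inv_eq_iff_eq_mul.1 this).symm

end

theorem ycS : YcS.{u} := by
  intro U G _ _ L S κ x n h φ t ι ν Φ M A C D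
  refine ⟨fun g gt gx hg => yc_core D C.tt true true gt gx (yc_AA D hg),
    fun g gt gx hg => ⟨yc_core D C.tt true false gt gx (yc_AB D hg), fun r u => ?_⟩,
    fun q hq r u => yc_cy D U M A C r u hq, fun k hk kt ho => yc_co D M C.tt hk kt ho⟩
  obtain ⟨r', u', e⟩ := yc_core D C.tt false true (g := g⁻¹) (show Commute g t from gt).inv_left
    (gx.imp (fun e => (congrArg (fun y => g⁻¹ * y * g⁻¹⁻¹) e.symm).trans (by group)) fun e =>
      (congrArg (fun y => g⁻¹ * y * g⁻¹⁻¹) (eq_inv_of_mul_eq_one_left (mul_inv_cancel x) |>.trans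
        (congrArg Inv.inv e.symm))).trans (by group))
    (fun a c => by
      obtain ⟨a', c', e⟩ := yc_surj D (yc_AB D hg) a c
      exact ⟨a', c', by rw [← e]; group⟩) r u
  exact ⟨r', u', by rw [show Φ ⟨r', 0, u'⟩ = _ from e.symm]; simp [yc_F, mul_assoc]⟩

/-- the elements centralising `W` and `Y_A / W` -/
def yc_M (Φ : Heis (R16 ν) →* G) : Submonoid G where
  carrier := {g | (∀ u, Commute g (Φ ⟨0, 0, u⟩)) ∧ ∀ r u, ∃ u', g * Φ ⟨r, 0, u⟩ * g⁻¹ = Φ ⟨r, 0, u'⟩}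
  one_mem' := ⟨fun _ => Commute.one_left _, fun _ u => ⟨u, by simp⟩⟩
  mul_mem' := fun {a b} ha hb => ⟨fun u => (ha.1 u).mul_left (hb.1 u), fun r u => by
    obtain ⟨u1, e1⟩ := hb.2 r u
    obtain ⟨u2, e2⟩ := ha.2 r u1
    exact ⟨u2, by rw [← e2, ← e1]; group⟩⟩

theorem yc_M_of {g : G} (h : ∀ r u, g * Φ ⟨r, 0, u⟩ = Φ ⟨r, 0, u⟩ * g) : g ∈ yc_M Φ :=
  ⟨h 0, fun r u => ⟨u, by rw [h, mul_inv_cancel_right]⟩⟩

theorem yc_M_Φ (p : Heis (R16 ν)) : Φ p ∈ yc_M Φ :=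
  ⟨fun u => by rw [Commute, SemiconjBy, ← map_mul, ← map_mul]; congr 1; ext1 <;> simp [add_comm],
    fun r u => ⟨u - r * p.b, by rw [← map_inv, ← map_mul, ← map_mul]; congr 1; ext1 <;> simp; ring⟩⟩

theorem cmS : CmS.{u} := by
  intro G _ _ L S κ x n h φ t ι ν Φ M C D Y
  have m1 : ∀ u, κ u ∈ yc_M Φ := fun u => by
    obtain ⟨b, c, e⟩ := (D.aB _).2 ⟨u.r, 0, rfl⟩
    rw [← inv_mul_cancel_right u (xb u.r), map_mul]
    refine mul_mem (yc_M_of (Y.cy _ ?_)) (by rw [e, ← D.ext]; exact yc_M_Φ _)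
    simp only [U6.mul_def, U6.inv_def]; grind
  have m2 : ∀ k : ℕ, x ^ k ∈ yc_M Φ := fun k => pow_mem (yc_M_of fun r u => (D.cx _).symm) k
  have nt : Commute n t := C.tK n M.nL
  obtain ⟨n1, n2⟩ := Y.ab n nt (.inr M.nx) fun p c => ⟨_, _, by simpa using M.an 0 0 0 p c⟩
  have nW : ∀ u, Commute n (Φ ⟨0, 0, u⟩) := fun u => by
    have a1 : ∀ r u, Commute (κ (xa 1)) (Φ ⟨r, 0, u⟩) := Y.cy _ rfl
    obtain ⟨r', u', e⟩ := n2 0 u
    rw [M.na]
    exact ((a1 0 u).mul_left (e ▸ (a1 r' u').conj n)).mul_left (a1 0 u)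
  have n3 : ∀ b u, ∃ r' u', n * Φ ⟨0, b, u⟩ * n⁻¹ = Φ ⟨r', 0, u'⟩ := fun b u => by
    obtain ⟨r', u', e⟩ := n2 b u
    obtain ⟨r'', u'', e'⟩ := Y.aa (n * n) (nt.mul_left nt) (.inl (by
      rw [show n * n * x * (n * n)⁻¹ = n * (n * x * n⁻¹) * n⁻¹ by group, M.nx, ← conj_inv, M.nx, inv_inv]))
      (fun p c => ⟨p, c, by
        rw [show n * n * κ (xC p c) * (n * n)⁻¹ = n * (n * κ (xC p c) * n⁻¹) * n⁻¹ by group, M.an, M.an]; simp⟩) r' u'
    exact ⟨r'', u'', by rw [e, ← e']; group⟩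
  obtain ⟨be, u1, e1⟩ := n3 1 0
  have n4 : ∀ s u r' u', n * Φ ⟨s, 0, u⟩ * n⁻¹ = Φ ⟨0, r', u'⟩ → be * r' = s := fun s u r' u' e => by
    have h1 : (⟨s, 0, u⟩ : Heis (R16 ν)) * ⟨0, 1, 0⟩ = ⟨0, 1, 0⟩ * ⟨s, 0, u⟩ * ⟨0, 0, s⟩ := by ext1 <;> simp
    have h2 := congrArg (fun p => n * Φ p * n⁻¹) h1
    simp only [map_mul] at h2
    rw [← conj_mul, ← conj_mul, ← conj_mul, e, e1, nW, mul_inv_cancel_right, ← map_mul, ← map_mul, ← map_mul] at h2
    have h3 := congrArg (fun p : Heis (R16 ν) => p.c) (D.inj h2)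
    simp only [Heis.mul_c, Heis.mul_a] at h3
    linear_combination -h3 - s * two_R16 ν
  obtain ⟨al, u2, e2⟩ := n1 1 0
  have e3 := n4 _ _ _ _ e2
  have n5 : ∀ s u, ∃ u', n * Φ ⟨s, 0, u⟩ * n⁻¹ = Φ ⟨0, s * al, u'⟩ := fun s u => by
    obtain ⟨r', u', e⟩ := n1 s u
    exact ⟨u', by rw [e, ← n4 _ _ _ _ e, mul_right_comm, e3, one_mul]⟩
  refine ⟨fun g hg gz u => ?_, fun g hg gz => ?_, n, M.nL, mul_inv_eq_iff_eq_mul.1 (by simpa using M.an 0 0 0 0 1), be,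
    fun b => ?_⟩
  · obtain ⟨a, a', k, rfl | rfl⟩ := M.bz g hg gz
    · exact (mul_mem (m1 a) (m2 k)).1 u
    · exact ((((m1 a).1 u).mul_left (nW u)).mul_left ((m2 k).1 u)).mul_left ((m1 a').1 u)
  · obtain ⟨a, a', k, rfl | rfl⟩ := M.bz g hg gz
    · refine ⟨0, fun r u s u' => ?_⟩
      obtain ⟨u3, e⟩ := (mul_mem (m1 a) (m2 k)).2 s u'
      rw [e, ← map_mul, ← map_mul, ← map_mul]
      congr 1; ext1 <;> simp [add_comm]
    · refine ⟨al, fun r u s u' => ?_⟩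
      obtain ⟨u3, e⟩ := (mul_mem (m2 k) (m1 a')).2 s u'
      obtain ⟨u4, e'⟩ := n5 s u3
      obtain ⟨u5, e''⟩ := (m1 a⁻¹).2 r u
      have h1 : κ a * n * x ^ k * κ a' * Φ ⟨s, 0, u'⟩ * (κ a * n * x ^ k * κ a')⁻¹ = κ a * Φ ⟨0, s * al, u4⟩ * (κ a)⁻¹ := by
        rw [← e', ← e]; group
      have h2 : Φ ⟨r, 0, u⟩ = κ a * Φ ⟨r, 0, u5⟩ * (κ a)⁻¹ := by rw [← e'', map_inv]; group
      rw [h1, h2, ← mul_inv_cancel_right (Φ ⟨0, 0, al * r * s⟩) (κ a), ← (m1 a).1, conj_mul, conj_mul, conj_mul,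
        ← map_mul, ← map_mul, ← map_mul]
      congr 3; ext1 <;> simp; ring
  · obtain ⟨u', e⟩ := n5 (be * b) 0
    refine ⟨u', ?_⟩
    rw [show (⟨be * b, 0, u'⟩ : Heis (R16 ν)) = ⟨be * b, 0, 0⟩ * ⟨0, 0, u'⟩ by ext1 <;> simp, map_mul, ← conj_mul, e, nW,
      mul_inv_cancel_right, ← map_mul, mul_right_comm, e3, one_mul]
    congr 1; ext1 <;> simp [add_self_R16]

end CL.G2R
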